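import Cfsg.Agent.Lib.Helper45.UU.Base

set_option autoImplicit false

namespace Cfsg.Agent.Lib.Helper45.UU

open Cfsg.Agent.Lib.Helper45.UC

variable {t : ℕ} {d : Fin t → ℕ} {K : Type*} [Field K]

theorem adj_mul (σ : K ≃+* K) {l m n : Type*} [Fintype m] (a : Matrix l m K) (b : Matrix m n K) :
    adj σ (a * b) = adj σ b * adj σ a := by
  ext i j
  simp only [adj, Matrix.mul_apply, map_sum, map_mul]
  exact Finset.sum_congr rfl (fun k _ => mul_comm _ _)

theorem adj_add (σ : K ≃+* K) {m n : Type*} (a b : Matrix m n K) :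
    adj σ (a + b) = adj σ a + adj σ b := by
  ext i j
  simp [adj]

theorem adj_one (σ : K ≃+* K) {m : Type*} [DecidableEq m] : adj σ (1 : Matrix m m K) = 1 := by
  ext i j
  simp only [adj, Matrix.one_apply]
  by_cases h : i = j
  · subst h
    simp
  · rw [if_neg h, if_neg (fun h' => h h'.symm), map_zero]

theorem adj_smul (σ : K ≃+* K) {m n : Type*} (c : K) (a : Matrix m n K) :
    adj σ (c • a) = σ c • adj σ a := by
  ext i j
  simp [adj]

theorem adj_adj (σ : K ≃+* K) (hσ : ∀ x, σ (σ x) = x) {m n : Type*} (a : Matrix m n K) :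
    adj σ (adj σ a) = a := by
  ext i j
  simp [adj, hσ]

theorem adj_submatrix (σ : K ≃+* K) {m n m' n' : Type*} (a : Matrix m n K) (f : m' → m)
    (g : n' → n) : adj σ (a.submatrix f g) = (adj σ a).submatrix g f := by
  rfl

theorem adj_eq (σ : K ≃+* K) {m n : Type*} (a : Matrix m n K) :
    adj σ a = (a.map σ).transpose ∧ adj σ a = (a.transpose).map σ ∧
      adj σ a = (a.map (σ : K →+* K)).transpose := by
  exact ⟨rfl, rfl, rfl⟩

end Cfsg.Agent.Lib.Helper45.UU
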