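import Mathlib

set_option autoImplicit false

namespace Cfsg.Agent.Lib.Helper45.UU

theorem tri_anti {R : Type*} [Ring R] (f : ℕ → ℕ → R) (N : ℕ)
    (h0 : ∀ b s, N + 1 ≤ b + s → f b s = 0)
    (hrel : ∀ b s, f (b + 1) s + f b (s + 1) + f (b + 1) (s + 1) = 0) :
    f N 0 = (-1) ^ N * f 0 N := by
  have key : ∀ j, j ≤ N → f j (N - j) = (-1) ^ j * f 0 N := by
    intro j
    induction j with
    | zero =>
      intro _
      simp
    | succ j ih =>
      intro hj
      have h1 := ih (by omega)
      have h2 := hrel j (N - (j + 1))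
      have e : N - (j + 1) + 1 = N - j := by omega
      rw [e, h0 (j + 1) (N - j) (by omega), add_zero, h1] at h2
      rw [pow_succ, mul_neg_one, neg_mul, eq_neg_of_add_eq_zero_left h2]
  have h := key N le_rfl
  simpa using h

end Cfsg.Agent.Lib.Helper45.UU
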