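import Cfsg.Agent.Lib.Helper45.UU.Base

set_option autoImplicit false

namespace Cfsg.Agent.Lib.Helper45.UU

open Cfsg.Agent.Lib.Helper45.UC

variable {t : ℕ} {d : Fin t → ℕ} {K : Type*} [Field K]

theorem H0_aux (M : Matrix (Ix d) (Ix d) K) (x y : Ix d) :
    ((Cfsg.jordanTypeMatrix d K).transpose * M) x y =
      M x y + (if h : (x.2 : ℕ) + 1 < d x.1 then M ⟨x.1, ⟨(x.2 : ℕ) + 1, h⟩⟩ y else 0) := by
  have h1 : ((Cfsg.jordanTypeMatrix d K).transpose * M) x y =
      (M.transpose * Cfsg.jordanTypeMatrix d K) y x := by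
    rw [← Matrix.transpose_apply (M.transpose * Cfsg.jordanTypeMatrix d K), Matrix.transpose_mul,
      Matrix.transpose_transpose]
  rw [h1, mul_jordan_apply]
  simp only [Matrix.transpose_apply]

theorem ext0_rel (M : Matrix (Ix d) (Ix d) K)
    (hM : (Cfsg.jordanTypeMatrix d K).transpose * M * Cfsg.jordanTypeMatrix d K = M)
    (l k : Fin t) (b s : ℕ) :
    ext0 M l k (b + 1) s + ext0 M l k b (s + 1) + ext0 M l k (b + 1) (s + 1) = 0 := by
  by_cases hbs : b < d l ∧ s < d k
  · have h := congrFun (congrFun hM ⟨l, ⟨b, hbs.1⟩⟩) ⟨k, ⟨s, hbs.2⟩⟩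
    rw [mul_jordan_apply] at h
    simp only [H0_aux] at h
    unfold ext0
    by_cases h1 : b + 1 < d l <;> by_cases h2 : s + 1 < d k <;>
      simp only [h1, h2, hbs.1, hbs.2, and_self, and_true, true_and, and_false, false_and, dite_true,
        dite_false, dif_pos, dif_neg, not_false_eq_true, add_zero, zero_add] at h ⊢ <;>
      first
        | linear_combination h
        | rfl
  · unfold ext0
    rw [dif_neg (by omega), dif_neg (by omega), dif_neg (by omega)]
    simp

end Cfsg.Agent.Lib.Helper45.UU
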