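import Mathlib

set_option autoImplicit false

namespace Cfsg.Agent.Lib.Helper45.UU

theorem tri_vanish {R : Type*} [Ring R] (f : ℕ → ℕ → R) (N : ℕ) (h0 : ∀ b s, N ≤ b → f b s = 0)
    (hrel : ∀ b s, f (b + 1) s + f b (s + 1) + f (b + 1) (s + 1) = 0) :
    ∀ b s, N ≤ b + s → f b s = 0 := by
  have key : ∀ n b s, N ≤ b + n → N ≤ b + s → f b s = 0 := by
    intro n
    induction n with
    | zero =>
      intro b s h _
      exact h0 b s (by omega)
    | succ n ih =>
      intro b s h hs
      by_cases hb : N ≤ b
      · exact h0 b s hb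
      · obtain ⟨s', rfl⟩ : ∃ s', s = s' + 1 := ⟨s - 1, by omega⟩
        have h1 := ih (b + 1) s' (by omega) (by omega)
        have h2 := ih (b + 1) (s' + 1) (by omega) (by omega)
        have h3 := hrel b s'
        rw [h1, h2] at h3
        simpa using h3
  exact fun b s h => key N b s (by omega) h

end Cfsg.Agent.Lib.Helper45.UU
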