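import Cfsg.Agent.Lib.Helper45.UU.Base
import Cfsg.Agent.Lib.Helper45.UU.H0
import Cfsg.Agent.Lib.Helper45.UU.TRI

set_option autoImplicit false

namespace Cfsg.Agent.Lib.Helper45.UU

open Cfsg.Agent.Lib.Helper45.UC

variable {t : ℕ} {d : Fin t → ℕ} {K : Type*} [Field K]

theorem form_vanish_left (M : Matrix (Ix d) (Ix d) K)
    (hM : (Cfsg.jordanTypeMatrix d K).transpose * M * Cfsg.jordanTypeMatrix d K = M)
    (x y : Ix d) (h : d x.1 ≤ (x.2 : ℕ) + (y.2 : ℕ)) : M x y = 0 := by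
  obtain ⟨l, b⟩ := x
  obtain ⟨k, s⟩ := y
  have h1 := tri_vanish (ext0 M l k) (d l)
    (fun b' s' hb => by
      unfold ext0
      rw [dif_neg (by omega)])
    (ext0_rel M hM l k) b s h
  unfold ext0 at h1
  rw [dif_pos ⟨b.2, s.2⟩] at h1
  exact h1

end Cfsg.Agent.Lib.Helper45.UU
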