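import Cfsg.Agent.Lib.Helper45.UU.Base
import Cfsg.Agent.Lib.Helper45.UU.V1

set_option autoImplicit false

namespace Cfsg.Agent.Lib.Helper45.UU

open Cfsg.Agent.Lib.Helper45.UC

variable {t : ℕ} {d : Fin t → ℕ} {K : Type*} [Field K]

theorem form_vanish_right (M : Matrix (Ix d) (Ix d) K)
    (hM : (Cfsg.jordanTypeMatrix d K).transpose * M * Cfsg.jordanTypeMatrix d K = M)
    (x y : Ix d) (h : d y.1 ≤ (x.2 : ℕ) + (y.2 : ℕ)) : M x y = 0 := by
  have hM' : (Cfsg.jordanTypeMatrix d K).transpose * M.transpose * Cfsg.jordanTypeMatrix d K =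
      M.transpose := by
    have h1 := congrArg Matrix.transpose hM
    rw [Matrix.transpose_mul, Matrix.transpose_mul, Matrix.transpose_transpose,
      ← Matrix.mul_assoc] at h1
    exact h1
  have h2 := form_vanish_left M.transpose hM' y x (by omega)
  simpa using h2

end Cfsg.Agent.Lib.Helper45.UU
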