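import Cfsg.Agent.Lib.Helper45.UU.Base
import Cfsg.Agent.Lib.Helper45.UU.H0
import Cfsg.Agent.Lib.Helper45.UU.AN0
import Cfsg.Agent.Lib.Helper45.UU.V1
import Cfsg.Agent.Lib.Helper45.UU.V2

set_option autoImplicit false

namespace Cfsg.Agent.Lib.Helper45.UU

open Cfsg.Agent.Lib.Helper45.UC

variable {t : ℕ} {d : Fin t → ℕ} {K : Type*} [Field K]

theorem form_anti (hd : ∀ k, 1 ≤ d k) (M : Matrix (Ix d) (Ix d) K)
    (hM : (Cfsg.jordanTypeMatrix d K).transpose * M * Cfsg.jordanTypeMatrix d K = M)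
    (l k : Fin t) (hlk : d l = d k) :
    M ⟨l, ⟨d l - 1, Nat.sub_lt (hd l) one_pos⟩⟩ ⟨k, ⟨0, hd k⟩⟩ =
      (-1) ^ (d l - 1) * M ⟨l, ⟨0, hd l⟩⟩ ⟨k, ⟨d k - 1, Nat.sub_lt (hd k) one_pos⟩⟩ := by
  have hl := hd l
  have hk := hd k
  have h1 := tri_anti (ext0 M l k) (d l - 1)
    (fun b s hbs => by
      unfold ext0
      split_ifs with h
      · exact form_vanish_left M hM _ _ (by simp only; omega)
      · rfl)
    (ext0_rel M hM l k)
  unfold ext0 at h1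
  rw [dif_pos ⟨by omega, by omega⟩, dif_pos ⟨by omega, by omega⟩] at h1
  rw [h1]
  have e : ∀ (p1 : d l - 1 < d k) (p2 : d k - 1 < d k),
      (⟨d l - 1, p1⟩ : Fin (d k)) = ⟨d k - 1, p2⟩ := fun _ _ => Fin.ext (by simp only; omega)
  rw [e]

end Cfsg.Agent.Lib.Helper45.UU
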