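import Mathlib

/-! Finite rings with an involution and a nil ideal: counting unitary elements (abstract part of S2646). -/

set_option autoImplicit false

namespace Cfsg.Agent.Lib.Helper45.UU

/-- a ring `A` with an involution `s` (anti-automorphism of order two), a surjective ring hom `p` onto
`B` with nil kernel, compatible with a map `t` of `B`; central elements `lam`, `eps` with
`lam + s lam = 1`, `eps` a unit and `s eps = - eps`. -/
structure InvData (A B : Type*) [Ring A] [Ring B] where
  s : A → A
  t : B → B
  p : A →+* B
  s_add : ∀ a b, s (a + b) = s a + s b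
  s_mul : ∀ a b, s (a * b) = s b * s a
  s_s : ∀ a, s (s a) = a
  p_s : ∀ a, p (s a) = t (p a)
  p_surj : Function.Surjective p
  nil : ∀ a, p a = 0 → IsNilpotent a
  lam : A
  lam_central : ∀ a, lam * a = a * lam
  lam_add : lam + s lam = 1
  eps : A
  eps_central : ∀ a, eps * a = a * eps
  eps_unit : IsUnit eps
  s_eps : s eps = - eps

end Cfsg.Agent.Lib.Helper45.UU
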