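import Cfsg.Agent.Lib.Helper45.UC.ASM
import Cfsg.Agent.Lib.Helper45.UU.Abs
import Cfsg.Statements.S2646

/-! S2646: order of the centraliser in `GU` of a unipotent matrix of given Jordan type; definitions. -/

set_option autoImplicit false

namespace Cfsg.Agent.Lib.Helper45.UU

open Cfsg.Agent.Lib.Helper45.UC

/-- conjugate transpose -/
def adj {K : Type*} [Field K] (σ : K ≃+* K) {m n : Type*} (a : Matrix m n K) : Matrix n m K :=
  fun i j => σ (a j i)

/-- an involutive field automorphism and an invertible hermitian matrix `H` (inverse `G`) preserved by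
the Jordan matrix -/
structure FormData {t : ℕ} (d : Fin t → ℕ) (K : Type*) [Field K] where
  σ : K ≃+* K
  σσ : ∀ x, σ (σ x) = x
  H : Matrix (Ix d) (Ix d) K
  G : Matrix (Ix d) (Ix d) K
  HG : H * G = 1
  GH : G * H = 1
  herm : adj σ H = H
  inv : adj σ (Cfsg.jordanTypeMatrix d K) * H * Cfsg.jordanTypeMatrix d K = H

/-- entries of a matrix between blocks `l` and `k`, extended by zero -/
def ext0 {t : ℕ} {d : Fin t → ℕ} {K : Type*} [Field K] (M : Matrix (Ix d) (Ix d) K) (l k : Fin t)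
    (b s : ℕ) : K :=
  if h : b < d l ∧ s < d k then M ⟨l, ⟨b, h.1⟩⟩ ⟨k, ⟨s, h.2⟩⟩ else 0

/-- reversal inside each block -/
def rev {t : ℕ} (d : Fin t → ℕ) : Ix d ≃ Ix d := Equiv.sigmaCongrRight (fun _ => Fin.revPerm)

variable {t : ℕ} {d : Fin t → ℕ} {K : Type*} [Field K]

/-- the form induced on the blocks of size `i` -/
def FormData.h (P : FormData d K) (hd : ∀ k, 1 ≤ d k) (i : ℕ) : Matrix (Blk d i) (Blk d i) K :=
  fun l k => P.H ⟨l.1, ⟨0, hd l.1⟩⟩ ⟨k.1, ⟨i - 1, by
    have := k.2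
    have := hd k.1
    omega⟩⟩

/-- its inverse -/
def FormData.g (P : FormData d K) (hd : ∀ k, 1 ≤ d k) (i : ℕ) : Matrix (Blk d i) (Blk d i) K :=
  fun k l => P.G ⟨k.1, ⟨i - 1, by
    have := k.2
    have := hd k.1
    omega⟩⟩ ⟨l.1, ⟨0, hd l.1⟩⟩

/-- the adjoint involution of the form `H` -/
def FormData.sg (P : FormData d K) (a : Matrix (Ix d) (Ix d) K) : Matrix (Ix d) (Ix d) K :=
  P.G * adj P.σ a * P.H

/-- the centraliser ring of the Jordan matrix -/
abbrev CA {t : ℕ} (d : Fin t → ℕ) (K : Type*) [Field K] :=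
  ↥(Subring.centralizer ({Cfsg.jordanTypeMatrix d K} : Set (Matrix (Ix d) (Ix d) K)))

/-- its semisimple quotient -/
abbrev CB {t : ℕ} (d : Fin t → ℕ) (K : Type*) [Field K] :=
  (i : Fin (Finset.univ.sup d + 1)) → Matrix (Blk d i) (Blk d i) K

end Cfsg.Agent.Lib.Helper45.UU
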