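import Cfsg.Agent.Lib.Helper45.UU.Base

set_option autoImplicit false

namespace Cfsg.Agent.Lib.Helper45.UU

open Cfsg.Agent.Lib.Helper45.UC

variable {t : ℕ} {d : Fin t → ℕ} {K : Type*} [Field K]

theorem mem_CA_iff (a : Matrix (Ix d) (Ix d) K) :
    a ∈ Subring.centralizer ({Cfsg.jordanTypeMatrix d K} : Set (Matrix (Ix d) (Ix d) K)) ↔
      Comm d a := by
  rw [Subring.mem_centralizer_iff]
  unfold Comm
  constructor
  · intro h
    exact (h _ (Set.mem_singleton _)).symm
  · intro h g hg
    rw [Set.mem_singleton_iff] at hg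
    subst hg
    exact h.symm

end Cfsg.Agent.Lib.Helper45.UU
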