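import Cfsg.Agent.Lib.Helper45.UU.Base
import Cfsg.Agent.Lib.Helper45.UU.MEM

set_option autoImplicit false

namespace Cfsg.Agent.Lib.Helper45.UU

open Cfsg.Agent.Lib.Helper45.UC

variable {t : ℕ} {d : Fin t → ℕ} {K : Type*} [Field K]

/-- the ring hom "top coefficients" -/
def topRing (d : Fin t → ℕ) (hd : ∀ k, 1 ≤ d k) (K : Type*) [Field K] : CA d K →+* CB d K where
  toFun a i := topG d hd a.1 i
  map_one' := by
    funext i
    exact topG_one hd i
  map_mul' a b := by
    funext i
    exact topG_mul hd ((mem_CA_iff a.1).1 a.2) ((mem_CA_iff b.1).1 b.2) i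
  map_zero' := rfl
  map_add' _ _ := rfl

end Cfsg.Agent.Lib.Helper45.UU
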