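import Cfsg.Agent.Lib.Helper45.UU.Base
import Cfsg.Agent.Lib.Helper45.UU.PH

set_option autoImplicit false

namespace Cfsg.Agent.Lib.Helper45.UU

open Cfsg.Agent.Lib.Helper45.UC

variable {t : ℕ} {d : Fin t → ℕ} {K : Type*} [Field K]

theorem C1_top_eq (hd : ∀ k, 1 ≤ d k) (p : PI d → K) (h : toMat d p ∈
    Subring.centralizer ({Cfsg.jordanTypeMatrix d K} : Set (Matrix (Ix d) (Ix d) K))) :
    topRing d hd K ⟨toMat d p, h⟩ = topHom d hd K p := by
  funext i l k
  exact topG_toMat hd p i l k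

theorem card_ker_topRing [Fintype K] (hd : ∀ k, 1 ≤ d k) :
    Nat.card {x : CA d K // topRing d hd K x = 0} = Fintype.card K ^
      (2 * (∑ i ∈ Finset.range (Finset.univ.sup d + 1), ∑ j ∈ Finset.range (Finset.univ.sup d + 1),
      if i < j then i * cnt d i * cnt d j else 0) +
      ∑ i ∈ Finset.range (Finset.univ.sup d + 1), (i - 1) * cnt d i ^ 2) := by
  have e1 : Nat.card {p : PI d → K // topHom d hd K p ∈ ({0} : Set (CB d K))} =
      Nat.card {x : CA d K // topRing d hd K x = 0} := by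
    apply Nat.card_congr
    refine Equiv.ofBijective (fun p => ⟨⟨toMat d p.1, (mem_CA_iff _).2 (toMat_comm p.1)⟩, ?_⟩)
      ⟨?_, ?_⟩
    · rw [C1_top_eq]
      exact p.2
    · intro p1 p2 h
      apply Subtype.ext
      apply toMat_injective hd
      exact congrArg (fun x => x.1.1) h
    · rintro ⟨⟨x, hx⟩, h0⟩
      obtain ⟨p, rfl⟩ := exists_param hd ((mem_CA_iff x).1 hx)
      refine ⟨⟨p, ?_⟩, rfl⟩
      rw [C1_top_eq] at h0
      exact h0
  have e2 := card_preimage_of_surjective (topHom d hd K) (topHom_surjective hd) ({0} : Set (CB d K))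
  rw [e1, card_param, card_target, sum_min_eq hd, pow_add] at e2
  have e3 : Nat.card (({0} : Set (CB d K)) : Type _) = 1 := by simp
  rw [e3, one_mul] at e2
  exact Nat.eq_of_mul_eq_mul_right (pow_pos Fintype.card_pos _) e2

end Cfsg.Agent.Lib.Helper45.UU
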