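import Cfsg.Agent.Lib.Helper45.UU.Base
import Cfsg.Agent.Lib.Helper45.UU.PH

set_option autoImplicit false

namespace Cfsg.Agent.Lib.Helper45.UU

open Cfsg.Agent.Lib.Helper45.UC

variable {t : ℕ} {d : Fin t → ℕ} {K : Type*} [Field K]

theorem topRing_nil (hd : ∀ k, 1 ≤ d k) (a : CA d K) (ha : topRing d hd K a = 0) :
    IsNilpotent a := by
  have h0 : ∀ i, topG d hd a.1 i = 0 := by
    intro i
    by_cases hi : i < Finset.univ.sup d + 1
    · exact congrFun ha ⟨i, hi⟩
    · ext l k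
      exfalso
      have h1 : d l.1 ≤ Finset.univ.sup d := Finset.le_sup (Finset.mem_univ l.1)
      have h2 := l.2
      omega
  obtain ⟨n, hn⟩ := isNilpotent_of_topG_eq_zero hd ((mem_CA_iff a.1).1 a.2) h0
  refine ⟨n, ?_⟩
  apply Subtype.ext
  rw [SubmonoidClass.coe_pow]
  exact hn

end Cfsg.Agent.Lib.Helper45.UU
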