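import Cfsg.Agent.Lib.Helper45.UU.Base
import Cfsg.Agent.Lib.Helper45.UU.PH

set_option autoImplicit false

namespace Cfsg.Agent.Lib.Helper45.UU

open Cfsg.Agent.Lib.Helper45.UC

variable {t : ℕ} {d : Fin t → ℕ} {K : Type*} [Field K]

theorem topRing_surjective (hd : ∀ k, 1 ≤ d k) : Function.Surjective (topRing d hd K) := by
  intro Y
  obtain ⟨p, hp⟩ := exists_section hd
    (fun i => if h : i < Finset.univ.sup d + 1 then Y ⟨i, h⟩ else 0)
  refine ⟨⟨toMat d p, (mem_CA_iff _).2 (toMat_comm p)⟩, ?_⟩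
  funext i
  show topG d hd (toMat d p) i = Y i
  rw [hp i, dif_pos i.2]

end Cfsg.Agent.Lib.Helper45.UU
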