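import Cfsg.Agent.Lib.Helper45.UU.Base

set_option autoImplicit false

namespace Cfsg.Agent.Lib.Helper45.UU

open Cfsg.Agent.Lib.Helper45.UC

variable {t : ℕ} {d : Fin t → ℕ} {K : Type*} [Field K]

/-- scalar elements of the centraliser ring -/
def scal (d : Fin t → ℕ) {K : Type*} [Field K] (c : K) : CA d K :=
  ⟨c • (1 : Matrix (Ix d) (Ix d) K), by
    rw [Subring.mem_centralizer_iff]
    intro g _
    rw [mul_smul_comm, smul_mul_assoc, mul_one, one_mul]⟩

theorem scal_central (c : K) (a : CA d K) : scal d c * a = a * scal d c := by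
  apply Subtype.ext
  show (c • (1 : Matrix (Ix d) (Ix d) K)) * a.1 = a.1 * (c • (1 : Matrix (Ix d) (Ix d) K))
  rw [mul_smul_comm, smul_mul_assoc, mul_one, one_mul]

theorem scal_isUnit {c : K} (hc : c ≠ 0) : IsUnit (scal d c) := by
  refine ⟨⟨scal d c, scal d c⁻¹, ?_, ?_⟩, rfl⟩
  · apply Subtype.ext
    show (c • (1 : Matrix (Ix d) (Ix d) K)) * (c⁻¹ • (1 : Matrix (Ix d) (Ix d) K)) = 1
    rw [mul_smul_comm, smul_mul_assoc, mul_one, smul_smul, inv_mul_cancel₀ hc, one_smul]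
  · apply Subtype.ext
    show (c⁻¹ • (1 : Matrix (Ix d) (Ix d) K)) * (c • (1 : Matrix (Ix d) (Ix d) K)) = 1
    rw [mul_smul_comm, smul_mul_assoc, mul_one, smul_smul, mul_inv_cancel₀ hc, one_smul]

end Cfsg.Agent.Lib.Helper45.UU
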