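import Cfsg.Agent.Lib.Helper45.UU.Base
import Cfsg.Agent.Lib.Helper45.UU.AD

set_option autoImplicit false

namespace Cfsg.Agent.Lib.Helper45.UU

open Cfsg.Agent.Lib.Helper45.UC

variable {t : ℕ} {d : Fin t → ℕ} {K : Type*} [Field K]

theorem adj_jordan (σ : K ≃+* K) :
    adj σ (Cfsg.jordanTypeMatrix d K) = (Cfsg.jordanTypeMatrix d K).transpose := by
  ext x y
  simp only [adj, Matrix.transpose_apply, jordan_apply]
  split_ifs <;> simp

end Cfsg.Agent.Lib.Helper45.UU
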