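import Cfsg.Agent.Lib.Helper45.UU.Base
import Cfsg.Agent.Lib.Helper45.UU.AD
import Cfsg.Agent.Lib.Helper45.UU.JA

set_option autoImplicit false

namespace Cfsg.Agent.Lib.Helper45.UU

open Cfsg.Agent.Lib.Helper45.UC

variable {t : ℕ} {d : Fin t → ℕ} {K : Type*} [Field K]

theorem FormData.rels (P : FormData d K) :
    (Cfsg.jordanTypeMatrix d K).transpose * P.H * Cfsg.jordanTypeMatrix d K = P.H ∧
    Cfsg.jordanTypeMatrix d K * P.G * (Cfsg.jordanTypeMatrix d K).transpose = P.G ∧
    adj P.σ P.G = P.G := by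
  have h1 : (Cfsg.jordanTypeMatrix d K).transpose * P.H * Cfsg.jordanTypeMatrix d K = P.H := by
    have := P.inv
    rwa [adj_jordan] at this
  refine ⟨h1, ?_, ?_⟩
  · have h2 : (P.G * (Cfsg.jordanTypeMatrix d K).transpose * P.H) * Cfsg.jordanTypeMatrix d K = 1 := by
      rw [Matrix.mul_assoc, Matrix.mul_assoc, ← Matrix.mul_assoc (Cfsg.jordanTypeMatrix d K).transpose,
        h1, P.GH]
    have h3 : Cfsg.jordanTypeMatrix d K * (P.G * (Cfsg.jordanTypeMatrix d K).transpose * P.H) = 1 :=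
      mul_eq_one_comm.mp h2
    calc Cfsg.jordanTypeMatrix d K * P.G * (Cfsg.jordanTypeMatrix d K).transpose
        = Cfsg.jordanTypeMatrix d K * P.G * (Cfsg.jordanTypeMatrix d K).transpose * (P.H * P.G) := by
          rw [P.HG, Matrix.mul_one]
      _ = (Cfsg.jordanTypeMatrix d K * (P.G * (Cfsg.jordanTypeMatrix d K).transpose * P.H)) * P.G := by
          simp only [Matrix.mul_assoc]
      _ = P.G := by rw [h3, Matrix.one_mul]
  · have h4 : adj P.σ P.G * P.H = 1 := by
      conv_lhs => rw [← P.herm]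
      rw [← adj_mul, P.HG, adj_one]
    calc adj P.σ P.G = adj P.σ P.G * (P.H * P.G) := by rw [P.HG, Matrix.mul_one]
      _ = (adj P.σ P.G * P.H) * P.G := by rw [Matrix.mul_assoc]
      _ = P.G := by rw [h4, Matrix.one_mul]

end Cfsg.Agent.Lib.Helper45.UU
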