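import Cfsg.Agent.Lib.Helper45.UU.Base
import Cfsg.Agent.Lib.Helper45.UU.AD
import Cfsg.Agent.Lib.Helper45.UU.GJ

set_option autoImplicit false

namespace Cfsg.Agent.Lib.Helper45.UU

open Cfsg.Agent.Lib.Helper45.UC

variable {t : ℕ} {d : Fin t → ℕ} {K : Type*} [Field K]

theorem FormData.sg_add (P : FormData d K) (a b : Matrix (Ix d) (Ix d) K) :
    P.sg (a + b) = P.sg a + P.sg b := by
  unfold FormData.sg
  rw [adj_add, mul_add, add_mul]

theorem FormData.sg_mul (P : FormData d K) (a b : Matrix (Ix d) (Ix d) K) :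
    P.sg (a * b) = P.sg b * P.sg a := by
  unfold FormData.sg
  rw [adj_mul]
  have : P.G * adj P.σ b * P.H * (P.G * adj P.σ a * P.H)
      = P.G * adj P.σ b * (P.H * P.G) * adj P.σ a * P.H := by
    simp only [mul_assoc]
  rw [this, P.HG, mul_one]
  simp only [mul_assoc]

theorem FormData.sg_sg (P : FormData d K) (a : Matrix (Ix d) (Ix d) K) : P.sg (P.sg a) = a := by
  unfold FormData.sg
  rw [adj_mul, adj_mul, adj_adj _ P.σσ, P.herm, P.rels.2.2]
  have : P.G * (P.H * (a * P.G)) * P.H = (P.G * P.H) * a * (P.G * P.H) := by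
    simp only [mul_assoc]
  rw [this, P.GH, one_mul, mul_one]

theorem FormData.sg_smul_one (P : FormData d K) (c : K) :
    P.sg (c • (1 : Matrix (Ix d) (Ix d) K)) = P.σ c • (1 : Matrix (Ix d) (Ix d) K) := by
  unfold FormData.sg
  rw [adj_smul, adj_one, Matrix.mul_smul, mul_one, Matrix.smul_mul, P.GH]

theorem FormData.sg_mul_eq_one_iff (P : FormData d K) (a : Matrix (Ix d) (Ix d) K) :
    P.sg a * a = 1 ↔ adj P.σ a * P.H * a = P.H := by
  unfold FormData.sg
  constructor
  · intro e
    have e2 := congrArg (fun x => P.H * x) e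
    simp only [mul_one] at e2
    have e3 : P.H * (P.G * adj P.σ a * P.H * a) = (P.H * P.G) * (adj P.σ a * P.H * a) := by
      simp only [mul_assoc]
    rw [e3, P.HG, one_mul] at e2
    exact e2
  · intro e
    have e3 : P.G * adj P.σ a * P.H * a = P.G * (adj P.σ a * P.H * a) := by
      simp only [mul_assoc]
    rw [e3, e, P.GH]

end Cfsg.Agent.Lib.Helper45.UU
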