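import Cfsg.Agent.Lib.Helper45.UU.Base
import Cfsg.Agent.Lib.Helper45.UU.SG

set_option autoImplicit false

namespace Cfsg.Agent.Lib.Helper45.UU

open Cfsg.Agent.Lib.Helper45.UC

variable {t : ℕ} {d : Fin t → ℕ} {K : Type*} [Field K]

theorem FormData.sg_comm (P : FormData d K) {a : Matrix (Ix d) (Ix d) K} (ha : Comm d a) :
    Comm d (P.sg a) := by
  unfold Comm at ha ⊢
  have h1 : P.sg (Cfsg.jordanTypeMatrix d K) * Cfsg.jordanTypeMatrix d K = 1 :=
    (P.sg_mul_eq_one_iff _).2 P.inv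
  have h2 : Cfsg.jordanTypeMatrix d K * P.sg (Cfsg.jordanTypeMatrix d K) = 1 :=
    mul_eq_one_comm.1 h1
  have h3 : P.sg (Cfsg.jordanTypeMatrix d K) * P.sg a
      = P.sg a * P.sg (Cfsg.jordanTypeMatrix d K) := by
    rw [← P.sg_mul, ← P.sg_mul, ha]
  calc P.sg a * Cfsg.jordanTypeMatrix d K
      = (Cfsg.jordanTypeMatrix d K * P.sg (Cfsg.jordanTypeMatrix d K)) * P.sg a
          * Cfsg.jordanTypeMatrix d K := by rw [h2, one_mul]
    _ = Cfsg.jordanTypeMatrix d K * (P.sg (Cfsg.jordanTypeMatrix d K) * P.sg a)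
          * Cfsg.jordanTypeMatrix d K := by simp only [mul_assoc]
    _ = Cfsg.jordanTypeMatrix d K * P.sg a
          * (P.sg (Cfsg.jordanTypeMatrix d K) * Cfsg.jordanTypeMatrix d K) := by
        rw [h3]; simp only [mul_assoc]
    _ = Cfsg.jordanTypeMatrix d K * P.sg a := by rw [h1, mul_one]

end Cfsg.Agent.Lib.Helper45.UU
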