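import Cfsg.Agent.Lib.Helper45.UU.Base

set_option autoImplicit false

namespace Cfsg.Agent.Lib.Helper45.UU

open Cfsg.Agent.Lib.Helper45.UC

variable {t : ℕ} {d : Fin t → ℕ} {K : Type*} [Field K]

theorem jordan_rev : (Cfsg.jordanTypeMatrix d K).submatrix (rev d) (rev d) =
    (Cfsg.jordanTypeMatrix d K).transpose := by
  ext ⟨l, b⟩ ⟨k, s⟩
  rw [Matrix.submatrix_apply, Matrix.transpose_apply, jordan_apply, jordan_apply]
  have hb := b.2
  have hs := s.2
  by_cases hlk : l = k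
  · subst hlk
    have e1 : (((rev d) ⟨l, b⟩).2 : ℕ) = d l - (b + 1) := by
      show ((Fin.rev b : Fin (d l)) : ℕ) = _
      rw [Fin.val_rev]
    have e2 : (((rev d) ⟨l, s⟩).2 : ℕ) = d l - (s + 1) := by
      show ((Fin.rev s : Fin (d l)) : ℕ) = _
      rw [Fin.val_rev]
    have f1 : ((rev d) ⟨l, b⟩).1 = l := rfl
    have f2 : ((rev d) ⟨l, s⟩).1 = l := rfl
    apply if_congr _ rfl rfl
    rw [e1, e2, f1, f2]
    simp only [true_and]
    omega
  · have f1 : ((rev d) ⟨l, b⟩).1 = l := rfl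
    have f2 : ((rev d) ⟨k, s⟩).1 = k := rfl
    rw [if_neg, if_neg]
    · rintro ⟨h, _⟩
      exact hlk h.symm
    · rintro ⟨h, _⟩
      rw [f1, f2] at h
      exact hlk h

end Cfsg.Agent.Lib.Helper45.UU
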