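import Cfsg.Agent.Lib.Helper45.UU.Base
import Cfsg.Agent.Lib.Helper45.UU.REV
import Cfsg.Agent.Lib.Helper45.UU.V1
import Cfsg.Agent.Lib.Helper45.UU.V2

set_option autoImplicit false

namespace Cfsg.Agent.Lib.Helper45.UU

open Cfsg.Agent.Lib.Helper45.UC

variable {t : ℕ} {d : Fin t → ℕ} {K : Type*} [Field K]

theorem inv_vanish (M : Matrix (Ix d) (Ix d) K)
    (hM : Cfsg.jordanTypeMatrix d K * M * (Cfsg.jordanTypeMatrix d K).transpose = M)
    (x y : Ix d) (h : (x.2 : ℕ) + (y.2 : ℕ) + 2 ≤ d x.1 ∨ (x.2 : ℕ) + (y.2 : ℕ) + 2 ≤ d y.1) :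
    M x y = 0 := by
  have hJ1 := jordan_rev (d := d) (K := K)
  have hJ2 : ((Cfsg.jordanTypeMatrix d K).transpose).submatrix (rev d) (rev d) =
      Cfsg.jordanTypeMatrix d K := by
    have := congrArg Matrix.transpose hJ1
    rwa [Matrix.transpose_submatrix, Matrix.transpose_transpose] at this
  have hM' : (Cfsg.jordanTypeMatrix d K).transpose * M.submatrix (rev d) (rev d) *
      Cfsg.jordanTypeMatrix d K = M.submatrix (rev d) (rev d) := by
    have := congrArg (fun A : Matrix (Ix d) (Ix d) K => A.submatrix (rev d) (rev d)) hM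
    beta_reduce at this
    rw [← Matrix.submatrix_mul_equiv _ _ (rev d) (rev d) (rev d),
      ← Matrix.submatrix_mul_equiv _ _ (rev d) (rev d) (rev d), hJ1, hJ2] at this
    exact this
  obtain ⟨l, b⟩ := x
  obtain ⟨k, s⟩ := y
  have hb := b.2
  have hs := s.2
  have e1 : (((rev d) ⟨l, b⟩).2 : ℕ) = d l - (b + 1) := by
    show ((Fin.rev b : Fin (d l)) : ℕ) = _
    rw [Fin.val_rev]
  have e2 : (((rev d) ⟨k, s⟩).2 : ℕ) = d k - (s + 1) := by
    show ((Fin.rev s : Fin (d k)) : ℕ) = _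
    rw [Fin.val_rev]
  have f1 : ((rev d) ⟨l, b⟩).1 = l := rfl
  have f2 : ((rev d) ⟨k, s⟩).1 = k := rfl
  have r1 : (rev d) ((rev d) ⟨l, b⟩) = ⟨l, b⟩ := by
    show (⟨l, Fin.rev (Fin.rev b)⟩ : Ix d) = ⟨l, b⟩
    rw [Fin.rev_rev]
  have r2 : (rev d) ((rev d) ⟨k, s⟩) = ⟨k, s⟩ := by
    show (⟨k, Fin.rev (Fin.rev s)⟩ : Ix d) = ⟨k, s⟩
    rw [Fin.rev_rev]
  have key : M ⟨l, b⟩ ⟨k, s⟩ = (M.submatrix (rev d) (rev d)) ((rev d) ⟨l, b⟩) ((rev d) ⟨k, s⟩) := by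
    rw [Matrix.submatrix_apply, r1, r2]
  rw [key]
  simp only at h
  rcases h with h | h
  · apply form_vanish_right _ hM'
    rw [e1, e2, f2]
    omega
  · apply form_vanish_left _ hM'
    rw [e1, e2, f1]
    omega

end Cfsg.Agent.Lib.Helper45.UU
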