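import Cfsg.Agent.Lib.Helper45.UU.Base
import Cfsg.Agent.Lib.Helper45.UU.GJ
import Cfsg.Agent.Lib.Helper45.UU.GV
import Cfsg.Agent.Lib.Helper45.UU.V1
import Cfsg.Agent.Lib.Helper45.UU.V2

set_option autoImplicit false

namespace Cfsg.Agent.Lib.Helper45.UU

open Cfsg.Agent.Lib.Helper45.UC

variable {t : ℕ} {d : Fin t → ℕ} {K : Type*} [Field K]

theorem FormData.h_mul_g (P : FormData d K) (hd : ∀ k, 1 ≤ d k) (i : ℕ) :
    P.h hd i * P.g hd i = 1 := by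
  obtain ⟨r1, r2, -⟩ := P.rels
  ext l l'
  have hHG := congrFun (congrFun P.HG ⟨l.1, ⟨0, hd l.1⟩⟩) ⟨l'.1, ⟨0, hd l'.1⟩⟩
  rw [Matrix.mul_apply, Fintype.sum_sigma] at hHG
  rw [Matrix.mul_apply]
  unfold FormData.h FormData.g
  have h1 : ∀ m : Fin t, ∑ b : Fin (d m),
      P.H ⟨l.1, ⟨0, hd l.1⟩⟩ ⟨m, b⟩ * P.G ⟨m, b⟩ ⟨l'.1, ⟨0, hd l'.1⟩⟩ =
      if hm : d m = i then P.H ⟨l.1, ⟨0, hd l.1⟩⟩ ⟨m, ⟨i - 1, by have := hd m; omega⟩⟩ *
        P.G ⟨m, ⟨i - 1, by have := hd m; omega⟩⟩ ⟨l'.1, ⟨0, hd l'.1⟩⟩ else 0 := by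
    intro m
    have hz : ∀ b : Fin (d m), ¬ (d m = i ∧ (b : ℕ) = i - 1) →
        P.H ⟨l.1, ⟨0, hd l.1⟩⟩ ⟨m, b⟩ * P.G ⟨m, b⟩ ⟨l'.1, ⟨0, hd l'.1⟩⟩ = 0 := by
      intro b hb
      have hl := l.2
      have hl' := l'.2
      have hb2 := b.2
      by_cases c1 : i ≤ (b : ℕ)
      · rw [form_vanish_left P.H r1 ⟨l.1, ⟨0, hd l.1⟩⟩ ⟨m, b⟩ (by simp only [zero_add]; omega),
          zero_mul]
      · by_cases c2 : (b : ℕ) + 2 ≤ d m
        · rw [inv_vanish P.G r2 ⟨m, b⟩ ⟨l'.1, ⟨0, hd l'.1⟩⟩ (Or.inl (by simp only [add_zero]; omega)),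
            mul_zero]
        · by_cases c3 : (b : ℕ) + 2 ≤ i
          · rw [inv_vanish P.G r2 ⟨m, b⟩ ⟨l'.1, ⟨0, hd l'.1⟩⟩
              (Or.inr (by simp only [add_zero]; omega)), mul_zero]
          · exfalso
            apply hb
            omega
    by_cases hm : d m = i
    · rw [dif_pos hm]
      apply Finset.sum_eq_single (⟨i - 1, by have := hd m; omega⟩ : Fin (d m))
      · intro b _ hb
        apply hz
        rintro ⟨-, h2⟩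
        exact hb (Fin.ext h2)
      · intro h; exact absurd (Finset.mem_univ _) h
    · rw [dif_neg hm]
      apply Finset.sum_eq_zero
      intro b _
      apply hz
      rintro ⟨h2, -⟩
      exact hm h2
  simp_rw [h1] at hHG
  have h2 := Finset.sum_subtype (p := fun m : Fin t => d m = i) (F := inferInstance)
    (Finset.univ.filter (fun m : Fin t => d m = i)) (by simp)
    (fun m => if hm : d m = i then P.H ⟨l.1, ⟨0, hd l.1⟩⟩ ⟨m, ⟨i - 1, by have := hd m; omega⟩⟩ *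
        P.G ⟨m, ⟨i - 1, by have := hd m; omega⟩⟩ ⟨l'.1, ⟨0, hd l'.1⟩⟩ else 0)
  rw [Finset.sum_filter] at h2
  have h3 : ∀ m : Fin t, (if d m = i then
      (if hm : d m = i then P.H ⟨l.1, ⟨0, hd l.1⟩⟩ ⟨m, ⟨i - 1, by have := hd m; omega⟩⟩ *
        P.G ⟨m, ⟨i - 1, by have := hd m; omega⟩⟩ ⟨l'.1, ⟨0, hd l'.1⟩⟩ else 0) else 0) =
      (if hm : d m = i then P.H ⟨l.1, ⟨0, hd l.1⟩⟩ ⟨m, ⟨i - 1, by have := hd m; omega⟩⟩ *
        P.G ⟨m, ⟨i - 1, by have := hd m; omega⟩⟩ ⟨l'.1, ⟨0, hd l'.1⟩⟩ else 0) := by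
    intro m
    by_cases hm : d m = i
    · rw [if_pos hm]
    · rw [if_neg hm, dif_neg hm]
  simp_rw [h3] at h2
  rw [hHG] at h2
  have h4 : ∀ k : Blk d i,
      (if hm : d k.1 = i then P.H ⟨l.1, ⟨0, hd l.1⟩⟩ ⟨k.1, ⟨i - 1, by have := hd k.1; omega⟩⟩ *
        P.G ⟨k.1, ⟨i - 1, by have := hd k.1; omega⟩⟩ ⟨l'.1, ⟨0, hd l'.1⟩⟩ else 0) =
      P.H ⟨l.1, ⟨0, hd l.1⟩⟩ ⟨k.1, ⟨i - 1, by have := hd k.1; have := k.2; omega⟩⟩ *
        P.G ⟨k.1, ⟨i - 1, by have := hd k.1; have := k.2; omega⟩⟩ ⟨l'.1, ⟨0, hd l'.1⟩⟩ := by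
    intro k
    rw [dif_pos k.2]
  rw [← Finset.sum_congr rfl (fun k _ => h4 k)]
  refine h2.symm.trans ?_
  rw [Matrix.one_apply, Matrix.one_apply]
  by_cases hll : l = l'
  · subst hll
    rw [if_pos rfl, if_pos rfl]
  · rw [if_neg hll, if_neg]
    intro h
    apply hll
    apply Subtype.ext
    exact congrArg Sigma.fst h
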