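import Cfsg.Agent.Lib.Helper45.UU.Base
import Cfsg.Agent.Lib.Helper45.UU.GJ
import Cfsg.Agent.Lib.Helper45.UU.V1
import Cfsg.Agent.Lib.Helper45.UU.V2
import Cfsg.Agent.Lib.Helper45.UU.AD

set_option autoImplicit false

namespace Cfsg.Agent.Lib.Helper45.UU

open Cfsg.Agent.Lib.Helper45.UC

variable {t : ℕ} {d : Fin t → ℕ} {K : Type*} [Field K]

theorem FormData.adj_mul_H_apply (P : FormData d K) (hd : ∀ k, 1 ≤ d k)
    {a : Matrix (Ix d) (Ix d) K} (ha : Comm d a) (i : ℕ) (l k : Blk d i) :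
    (adj P.σ a * P.H) ⟨l.1, ⟨0, hd l.1⟩⟩ ⟨k.1, ⟨i - 1, by
      have := k.2
      have := hd k.1
      omega⟩⟩ = (adj P.σ (topG d hd a i) * P.h hd i) l k := by
  obtain ⟨r1, -, -⟩ := P.rels
  have hk := k.2
  have hl := l.2
  have hk1 := hd k.1
  have hik : i - 1 < d k.1 := by omega
  rw [Matrix.mul_apply, Matrix.mul_apply, Fintype.sum_sigma]
  unfold FormData.h topG adj
  have h1 : ∀ m : Fin t, ∑ b : Fin (d m),
      P.σ (a ⟨m, b⟩ ⟨l.1, ⟨0, hd l.1⟩⟩) * P.H ⟨m, b⟩ ⟨k.1, ⟨i - 1, hik⟩⟩ =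
      P.σ (a ⟨m, ⟨0, hd m⟩⟩ ⟨l.1, ⟨0, hd l.1⟩⟩) * P.H ⟨m, ⟨0, hd m⟩⟩ ⟨k.1, ⟨i - 1, hik⟩⟩ := by
    intro m
    apply Finset.sum_eq_single
    · intro b _ hb
      rw [form_vanish_right P.H r1 ⟨m, b⟩ ⟨k.1, ⟨i - 1, hik⟩⟩, mul_zero]
      have : (b : ℕ) ≠ 0 := by
        intro h0
        apply hb
        apply Fin.ext
        simpa using h0
      simp only
      omega
    · intro h; exact absurd (Finset.mem_univ _) h
  simp_rw [h1]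
  rw [← Finset.sum_subtype (Finset.univ.filter (fun m : Fin t => d m = i)) (by simp)
    (fun m => P.σ (a ⟨m, ⟨0, hd m⟩⟩ ⟨l.1, ⟨0, hd l.1⟩⟩) *
      P.H ⟨m, ⟨0, hd m⟩⟩ ⟨k.1, ⟨i - 1, hik⟩⟩)]
  rw [Finset.sum_filter]
  apply Finset.sum_congr rfl
  intro m _
  split_ifs with hm
  · rfl
  · rcases lt_or_gt_of_ne hm with h' | h'
    · rw [form_vanish_left P.H r1 ⟨m, ⟨0, hd m⟩⟩ ⟨k.1, ⟨i - 1, hik⟩⟩ (by simp only; omega),
        mul_zero]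
    · rw [comm_zero ha hd ⟨m, ⟨0, hd m⟩⟩ l.1 (by simp only [zero_add]; rw [l.2]; exact h'),
        map_zero, zero_mul]

end Cfsg.Agent.Lib.Helper45.UU
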