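import Cfsg.Agent.Lib.Helper45.UU.Base
import Cfsg.Agent.Lib.Helper45.UU.GJ
import Cfsg.Agent.Lib.Helper45.UU.V1
import Cfsg.Agent.Lib.Helper45.UU.V2

set_option autoImplicit false

namespace Cfsg.Agent.Lib.Helper45.UU

open Cfsg.Agent.Lib.Helper45.UC

variable {t : ℕ} {d : Fin t → ℕ} {K : Type*} [Field K]

theorem FormData.H_mul_apply (P : FormData d K) (hd : ∀ k, 1 ≤ d k)
    {c : Matrix (Ix d) (Ix d) K} (hc : Comm d c) (i : ℕ) (l k : Blk d i) :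
    (P.H * c) ⟨l.1, ⟨0, hd l.1⟩⟩ ⟨k.1, ⟨i - 1, by
      have := k.2
      have := hd k.1
      omega⟩⟩ = (P.h hd i * topG d hd c i) l k := by
  obtain ⟨r1, -, -⟩ := P.rels
  have hk := k.2
  have hl := l.2
  have hk1 := hd k.1
  have hik : i - 1 < d k.1 := by omega
  rw [Matrix.mul_apply, Matrix.mul_apply, Fintype.sum_sigma]
  unfold FormData.h topG
  have h1 : ∀ m : Fin t, ∑ b : Fin (d m),
      P.H ⟨l.1, ⟨0, hd l.1⟩⟩ ⟨m, b⟩ * c ⟨m, b⟩ ⟨k.1, ⟨i - 1, hik⟩⟩ =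
      if hm : d m = i then P.H ⟨l.1, ⟨0, hd l.1⟩⟩ ⟨m, ⟨i - 1, by have := hd m; omega⟩⟩ *
        c ⟨m, ⟨0, hd m⟩⟩ ⟨k.1, ⟨0, hd k.1⟩⟩ else 0 := by
    intro m
    have hz : ∀ b : Fin (d m), ¬ (d m = i ∧ (b : ℕ) = i - 1) →
        P.H ⟨l.1, ⟨0, hd l.1⟩⟩ ⟨m, b⟩ * c ⟨m, b⟩ ⟨k.1, ⟨i - 1, hik⟩⟩ = 0 := by
      intro b hb
      have hb2 := b.2
      by_cases c1 : i ≤ (b : ℕ)
      · rw [form_vanish_left P.H r1 ⟨l.1, ⟨0, hd l.1⟩⟩ ⟨m, b⟩ (by simp only [zero_add]; omega),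
          zero_mul]
      · rw [comm_shift hc hd ⟨m, b⟩ ⟨k.1, ⟨i - 1, hik⟩⟩]
        by_cases c2 : i - 1 ≤ (b : ℕ)
        · rw [dif_pos c2]
          rw [comm_zero hc hd _ k.1 (by simp only; omega), mul_zero]
        · rw [dif_neg c2, mul_zero]
    by_cases hm : d m = i
    · rw [dif_pos hm]
      rw [Finset.sum_eq_single (⟨i - 1, by have := hd m; omega⟩ : Fin (d m))]
      · rw [comm_shift hc hd ⟨m, ⟨i - 1, by have := hd m; omega⟩⟩ ⟨k.1, ⟨i - 1, hik⟩⟩]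
        rw [dif_pos (le_refl _)]
        congr 4
        simp
      · intro b _ hb
        apply hz
        rintro ⟨-, h2⟩
        exact hb (Fin.ext h2)
      · intro h; exact absurd (Finset.mem_univ _) h
    · rw [dif_neg hm]
      apply Finset.sum_eq_zero
      intro b _
      apply hz
      rintro ⟨h2, -⟩
      exact hm h2
  simp_rw [h1]
  have h2 := Finset.sum_subtype (p := fun m : Fin t => d m = i) (F := inferInstance)
    (Finset.univ.filter (fun m : Fin t => d m = i)) (by simp)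
    (fun m => if hm : d m = i then P.H ⟨l.1, ⟨0, hd l.1⟩⟩ ⟨m, ⟨i - 1, by have := hd m; omega⟩⟩ *
        c ⟨m, ⟨0, hd m⟩⟩ ⟨k.1, ⟨0, hd k.1⟩⟩ else 0)
  rw [Finset.sum_filter] at h2
  have h3 : ∀ m : Fin t, (if d m = i then
      (if hm : d m = i then P.H ⟨l.1, ⟨0, hd l.1⟩⟩ ⟨m, ⟨i - 1, by have := hd m; omega⟩⟩ *
        c ⟨m, ⟨0, hd m⟩⟩ ⟨k.1, ⟨0, hd k.1⟩⟩ else 0) else 0) =
      (if hm : d m = i then P.H ⟨l.1, ⟨0, hd l.1⟩⟩ ⟨m, ⟨i - 1, by have := hd m; omega⟩⟩ *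
        c ⟨m, ⟨0, hd m⟩⟩ ⟨k.1, ⟨0, hd k.1⟩⟩ else 0) := by
    intro m
    by_cases hm : d m = i
    · rw [if_pos hm]
    · rw [if_neg hm, dif_neg hm]
  simp_rw [h3] at h2
  rw [h2]
  apply Finset.sum_congr rfl
  intro m _
  rw [dif_pos m.2]

end Cfsg.Agent.Lib.Helper45.UU
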