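import Cfsg.Agent.Lib.Helper45.UU.Base
import Cfsg.Agent.Lib.Helper45.UU.T4a
import Cfsg.Agent.Lib.Helper45.UU.T4b
import Cfsg.Agent.Lib.Helper45.UU.T2
import Cfsg.Agent.Lib.Helper45.UU.H3
import Cfsg.Agent.Lib.Helper45.UU.SG

set_option autoImplicit false

namespace Cfsg.Agent.Lib.Helper45.UU

open Cfsg.Agent.Lib.Helper45.UC

variable {t : ℕ} {d : Fin t → ℕ} {K : Type*} [Field K]

theorem FormData.topG_sg (P : FormData d K) (hd : ∀ k, 1 ≤ d k)
    {a : Matrix (Ix d) (Ix d) K} (ha : Comm d a) (i : ℕ) :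
    topG d hd (P.sg a) i = P.g hd i * adj P.σ (topG d hd a i) * P.h hd i := by
  have e1 : P.H * P.sg a = adj P.σ a * P.H := by
    unfold FormData.sg
    rw [← Matrix.mul_assoc, ← Matrix.mul_assoc, P.HG, Matrix.one_mul]
  have e2 : P.h hd i * topG d hd (P.sg a) i = adj P.σ (topG d hd a i) * P.h hd i := by
    ext l k
    rw [← P.H_mul_apply hd (P.sg_comm ha) i l k, ← P.adj_mul_H_apply hd ha i l k, e1]
  have e3 : P.g hd i * P.h hd i = 1 := mul_eq_one_comm.1 (P.h_mul_g hd i)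
  rw [Matrix.mul_assoc, ← e2, ← Matrix.mul_assoc, e3, Matrix.one_mul]

end Cfsg.Agent.Lib.Helper45.UU
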