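import Cfsg.Agent.Lib.Helper45.UU.Base
import Cfsg.Agent.Lib.Helper45.UU.PH
import Cfsg.Agent.Lib.Helper45.UU.PS
import Cfsg.Agent.Lib.Helper45.UU.PN
import Cfsg.Agent.Lib.Helper45.UU.SC
import Cfsg.Agent.Lib.Helper45.UU.SG
import Cfsg.Agent.Lib.Helper45.UU.T2
import Cfsg.Agent.Lib.Helper45.UU.T4

set_option autoImplicit false

namespace Cfsg.Agent.Lib.Helper45.UU

open Cfsg.Agent.Lib.Helper45.UC

variable {t : ℕ} {d : Fin t → ℕ} {K : Type*} [Field K]

/-- the data for the abstract counting theorem -/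
def mkData (P : FormData d K) (hd : ∀ k, 1 ≤ d k) (lam eps : K) (hlam : lam + P.σ lam = 1)
    (heps : eps ≠ 0) (heps' : P.σ eps = - eps) : InvData (CA d K) (CB d K) where
  s a := ⟨P.sg a.1, (mem_CA_iff _).2 (P.sg_comm ((mem_CA_iff a.1).1 a.2))⟩
  t b i := P.g hd i * adj P.σ (b i) * P.h hd i
  p := topRing d hd K
  s_add a b := Subtype.ext (P.sg_add a.1 b.1)
  s_mul a b := Subtype.ext (P.sg_mul a.1 b.1)
  s_s a := Subtype.ext (P.sg_sg a.1)
  p_s a := by
    funext i
    exact P.topG_sg hd ((mem_CA_iff a.1).1 a.2) i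
  p_surj := topRing_surjective hd
  nil := topRing_nil hd
  lam := scal d lam
  lam_central := scal_central lam
  lam_add := by
    apply Subtype.ext
    show lam • (1 : Matrix (Ix d) (Ix d) K) + P.sg (lam • (1 : Matrix (Ix d) (Ix d) K)) = 1
    rw [P.sg_smul_one, ← add_smul, hlam, one_smul]
  eps := scal d eps
  eps_central := scal_central eps
  eps_unit := scal_isUnit heps
  s_eps := by
    apply Subtype.ext
    show P.sg (eps • (1 : Matrix (Ix d) (Ix d) K)) = - (eps • (1 : Matrix (Ix d) (Ix d) K))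
    rw [P.sg_smul_one, heps', neg_smul]

end Cfsg.Agent.Lib.Helper45.UU
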