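import Cfsg.Agent.Lib.Helper45.UU.Base
import Cfsg.Agent.Lib.Helper44.GUConj

set_option autoImplicit false

namespace Cfsg.Agent.Lib.Helper45.UU

open Cfsg.Agent.Lib.Helper45.UC

variable {t : ℕ} {d : Fin t → ℕ} {K : Type*} [Field K]

theorem exists_lam [Fintype K] {q : ℕ} (hK : Fintype.card K = q ^ 2) :
    ∃ lam : K, lam + lam ^ q = 1 := by
  obtain ⟨s, hs, hss, w, hw⟩ := Cfsg.Agent.Lib.Helper44.exists_frob_sq hK
  obtain ⟨x, hx⟩ : ∃ x : K, x + s x ≠ 0 := by
    by_contra hcon
    push Not at hcon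
    have h1 := hcon 1
    rw [map_one] at h1
    apply hw
    have h2 := hcon w
    have h3 : w + w = 0 := by
      have : w * (1 + 1) = 0 := by rw [h1, mul_zero]
      linear_combination this
    linear_combination h2 - h3
  have hc : s (x + s x) = x + s x := by rw [map_add, hss]; ring
  refine ⟨x / (x + s x), ?_⟩
  rw [← hs, map_div₀, hc, ← add_div, div_self hx]

end Cfsg.Agent.Lib.Helper45.UU
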