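import Cfsg.Agent.Lib.Helper45.UU.Base
import Cfsg.Agent.Lib.Helper44.GUConj

set_option autoImplicit false

namespace Cfsg.Agent.Lib.Helper45.UU

open Cfsg.Agent.Lib.Helper45.UC

variable {t : ℕ} {d : Fin t → ℕ} {K : Type*} [Field K]

theorem exists_eps [Fintype K] {q : ℕ} (hK : Fintype.card K = q ^ 2) :
    ∃ eps : K, eps ≠ 0 ∧ eps ^ q = - eps := by
  obtain ⟨s, hs, hss, w, hw⟩ := Cfsg.Agent.Lib.Helper44.exists_frob_sq hK
  refine ⟨w - s w, fun h => hw (sub_eq_zero.1 h).symm, ?_⟩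
  rw [← hs, map_sub, hss]
  ring

end Cfsg.Agent.Lib.Helper45.UU
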