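import Cfsg.Agent.Lib.Helper45.UU.Base
import Cfsg.Agent.Lib.Helper44.GUConj

set_option autoImplicit false

namespace Cfsg.Agent.Lib.Helper45.UU

open Cfsg.Agent.Lib.Helper45.UC

variable {t : ℕ} {d : Fin t → ℕ} {K : Type*} [Field K]

theorem exists_sigma [Fintype K] {q : ℕ} (hK : Fintype.card K = q ^ 2) :
    ∃ σ : K ≃+* K, (∀ x, σ x = x ^ q) ∧ (∀ x, σ (σ x) = x) ∧ σ ≠ 1 ∧ σ * σ = 1 := by
  obtain ⟨s, hs, hss, w, hw⟩ := Cfsg.Agent.Lib.Helper44.exists_frob_sq hK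
  have hcomp : s.comp s = RingHom.id K := RingHom.ext (fun x => hss x)
  refine ⟨RingEquiv.ofRingHom s s hcomp hcomp, fun x => hs x, fun x => hss x, ?_, ?_⟩
  · intro h
    apply hw
    have := congrArg (fun f : K ≃+* K => f w) h
    exact this
  · exact RingEquiv.ext (fun x => hss x)

end Cfsg.Agent.Lib.Helper45.UU
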