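import Cfsg.Agent.Lib.Helper45.UU.Base
import Cfsg.Agent.Lib.Helper45.UU.DD
import Cfsg.Agent.Lib.Helper45.UU.H3

set_option autoImplicit false

namespace Cfsg.Agent.Lib.Helper45.UU

open Cfsg.Agent.Lib.Helper45.UC

variable {t : ℕ} {d : Fin t → ℕ} {K : Type*} [Field K]

theorem card_unitary_CB (P : FormData d K) (hd : ∀ k, 1 ≤ d k) (lam eps : K)
    (hlam : lam + P.σ lam = 1) (heps : eps ≠ 0) (heps' : P.σ eps = - eps) :
    Nat.card {b : CB d K // (mkData P hd lam eps hlam heps heps').t b * b = 1} =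
      ∏ i : Fin (Finset.univ.sup d + 1), Nat.card {b : Matrix (Blk d i) (Blk d i) K //
        adj P.σ b * P.h hd i * b = P.h hd i} := by
  rw [← Nat.card_pi]
  apply Nat.card_congr
  refine (Equiv.subtypeEquivRight (fun b => ?_)).trans
    (Equiv.subtypePiEquivPi (p := fun (i : Fin (Finset.univ.sup d + 1))
      (b : Matrix (Blk d i) (Blk d i) K) => adj P.σ b * P.h hd i * b = P.h hd i))
  rw [funext_iff]
  apply forall_congr'
  intro i
  have h1 : P.h hd i * P.g hd i = 1 := P.h_mul_g hd i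
  have h2 : P.g hd i * P.h hd i = 1 := mul_eq_one_comm.mp h1
  show P.g hd i * adj P.σ (b i) * P.h hd i * b i = 1 ↔ _
  constructor
  · intro h
    calc adj P.σ (b i) * P.h hd i * b i
        = (P.h hd i * P.g hd i) * (adj P.σ (b i) * P.h hd i * b i) := by rw [h1, Matrix.one_mul]
      _ = P.h hd i * (P.g hd i * adj P.σ (b i) * P.h hd i * b i) := by simp only [Matrix.mul_assoc]
      _ = P.h hd i := by rw [h, Matrix.mul_one]
  · intro h
    calc P.g hd i * adj P.σ (b i) * P.h hd i * b i
        = P.g hd i * (adj P.σ (b i) * P.h hd i * b i) := by simp only [Matrix.mul_assoc]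
      _ = 1 := by rw [h, h2]

end Cfsg.Agent.Lib.Helper45.UU
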