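import Cfsg.Agent.Lib.Helper45.UU.Base
import Cfsg.Agent.Lib.Helper45.UU.AD

set_option autoImplicit false

namespace Cfsg.Agent.Lib.Helper45.UU

open Cfsg.Agent.Lib.Helper45.UC

variable {t : ℕ} {d : Fin t → ℕ} {K : Type*} [Field K]

theorem card_unitary_reindex (σ : K ≃+* K) {ι κ : Type*} [Fintype ι] [Fintype κ] (f : ι ≃ κ)
    (h : Matrix ι ι K) :
    Nat.card {b : Matrix ι ι K // adj σ b * h * b = h} =
      Nat.card {b : Matrix κ κ K // adj σ b * (h.submatrix f.symm f.symm) * b =
        h.submatrix f.symm f.symm} := by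
  classical
  have key : ∀ (b h' : Matrix κ κ K), h = h'.submatrix f f → adj σ b * h' * b = h' →
      adj σ (b.submatrix f f) * h * (b.submatrix f f) = h := by
    intro b h' e hb
    rw [e, adj_submatrix, Matrix.submatrix_mul_equiv, Matrix.submatrix_mul_equiv, hb]
  apply Nat.card_congr
  refine ⟨fun b => ⟨b.1.submatrix f.symm f.symm, ?_⟩, fun b => ⟨b.1.submatrix f f, ?_⟩, ?_, ?_⟩
  · rw [adj_submatrix, Matrix.submatrix_mul_equiv, Matrix.submatrix_mul_equiv, b.2]
  · exact key b.1 _ (by simp) b.2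
  · intro b
    apply Subtype.ext
    simp
  · intro b
    apply Subtype.ext
    simp

end Cfsg.Agent.Lib.Helper45.UU
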