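import Cfsg.Agent.Lib.Helper45.UU.Base
import Cfsg.Agent.Lib.Helper43.PA.HermDecomp
import Cfsg.Agent.Lib.Helper45.UU.AD

set_option autoImplicit false

namespace Cfsg.Agent.Lib.Helper45.UU

open Cfsg.Agent.Lib.Helper45.UC

variable {t : ℕ} {d : Fin t → ℕ} {K : Type*} [Field K]

theorem card_herm_unitary_fin [Fintype K] {q : ℕ} (σ : K ≃+* K) (hσ : ∀ x, σ x = x ^ q)
    (hσσ : ∀ x, σ (σ x) = x) (hσ1 : σ ≠ 1) (hσ2 : σ * σ = 1) (m : ℕ)
    (h g : Matrix (Fin m) (Fin m) K) (hg : h * g = 1) (hh : adj σ h = h) :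
    Nat.card {b : Matrix (Fin m) (Fin m) K // adj σ b * h * b = h} =
      Nat.card {b : Matrix (Fin m) (Fin m) K // adj σ b * b = 1} := by
  let hu : GL (Fin m) K := ⟨h, g, hg, mul_eq_one_comm.mp hg⟩
  have hhu : (hu.1.transpose).map σ = hu.1 := by
    show (h.transpose).map σ = h
    rw [← (adj_eq σ h).2.1]
    exact hh
  obtain ⟨m0, hm0⟩ := Cfsg.Agent.Lib.Helper43.PA.herm_decomp σ hσ1 hσ2 hu hhu
  obtain ⟨M0, M0i, e1, e2⟩ := m0
  have hm : h = M0 * adj σ M0 := by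
    rw [(adj_eq σ M0).2.1]
    exact hm0
  have f1 : adj σ M0 * adj σ M0i = 1 := by rw [← adj_mul, e2, adj_one]
  have f2 : adj σ M0i * adj σ M0 = 1 := by rw [← adj_mul, e1, adj_one]
  have a1 : adj σ (adj σ M0) = M0 := adj_adj σ hσσ M0
  have a2 : adj σ (adj σ M0i) = M0i := adj_adj σ hσσ M0i
  apply Nat.card_congr
  refine ⟨fun b => ⟨adj σ M0 * b.1 * adj σ M0i, ?_⟩, fun c => ⟨adj σ M0i * c.1 * adj σ M0, ?_⟩, ?_, ?_⟩
  · have hb := b.2
    rw [adj_mul, adj_mul, a1, a2]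
    calc M0i * (adj σ b.1 * M0) * (adj σ M0 * b.1 * adj σ M0i)
        = M0i * (adj σ b.1 * (M0 * adj σ M0) * b.1) * adj σ M0i := by simp only [Matrix.mul_assoc]
      _ = M0i * (M0 * adj σ M0) * adj σ M0i := by rw [← hm, hb]
      _ = (M0i * M0) * (adj σ M0 * adj σ M0i) := by simp only [Matrix.mul_assoc]
      _ = 1 := by rw [e2, f1, Matrix.one_mul]
  · have hc := c.2
    rw [adj_mul, adj_mul, a1, a2, hm]
    calc M0 * (adj σ c.1 * M0i) * (M0 * adj σ M0) * (adj σ M0i * c.1 * adj σ M0)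
        = M0 * (adj σ c.1 * ((M0i * M0) * ((adj σ M0 * adj σ M0i) * c.1))) * adj σ M0 := by
          simp only [Matrix.mul_assoc]
      _ = M0 * (adj σ c.1 * c.1) * adj σ M0 := by rw [e2, f1, Matrix.one_mul, Matrix.one_mul]
      _ = M0 * adj σ M0 := by rw [hc, Matrix.mul_one]
  · intro b
    apply Subtype.ext
    show adj σ M0i * (adj σ M0 * b.1 * adj σ M0i) * adj σ M0 = b.1
    calc adj σ M0i * (adj σ M0 * b.1 * adj σ M0i) * adj σ M0
        = (adj σ M0i * adj σ M0) * b.1 * (adj σ M0i * adj σ M0) := by simp only [Matrix.mul_assoc]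
      _ = b.1 := by rw [f2, Matrix.one_mul, Matrix.mul_one]
  · intro c
    apply Subtype.ext
    show adj σ M0 * (adj σ M0i * c.1 * adj σ M0) * adj σ M0i = c.1
    calc adj σ M0 * (adj σ M0i * c.1 * adj σ M0) * adj σ M0i
        = (adj σ M0 * adj σ M0i) * c.1 * (adj σ M0 * adj σ M0i) := by simp only [Matrix.mul_assoc]
      _ = c.1 := by rw [f1, Matrix.one_mul, Matrix.mul_one]

end Cfsg.Agent.Lib.Helper45.UU
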