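import Cfsg.Agent.Lib.Helper45.UU.Base
import Cfsg.Agent.Lib.Helper44.GUConj
import Cfsg.Agent.Lib.Helper45.UU.AD

set_option autoImplicit false

namespace Cfsg.Agent.Lib.Helper45.UU

open Cfsg.Agent.Lib.Helper45.UC

variable {t : ℕ} {d : Fin t → ℕ} {K : Type*} [Field K]

theorem card_std_unitary {q : ℕ} (σ : K ≃+* K) (hσ : ∀ x, σ x = x ^ q) (m : ℕ) :
    Nat.card {b : Matrix (Fin m) (Fin m) K // adj σ b * b = 1} = Nat.card ↥(Cfsg.GU m K q) := by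
  have hσ' : ∀ x, (σ : K →+* K) x = x ^ q := fun x => hσ x
  apply Nat.card_congr
  refine ⟨fun b => ⟨⟨b.1, adj σ b.1, mul_eq_one_comm.mp b.2, b.2⟩, ?_⟩,
    fun g => ⟨g.1.1, ?_⟩, ?_, ?_⟩
  · rw [Cfsg.Agent.Lib.Helper44.mem_GU_iff (σ : K →+* K) hσ']
    show ((b.1).map (σ : K →+* K)).transpose * b.1 = 1
    rw [← (adj_eq σ b.1).2.2]
    exact b.2
  · rw [(adj_eq σ _).2.2]
    exact (Cfsg.Agent.Lib.Helper44.mem_GU_iff (σ : K →+* K) hσ' g.1).1 g.2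
  · intro b
    rfl
  · intro g
    apply Subtype.ext
    apply Units.ext
    rfl

end Cfsg.Agent.Lib.Helper45.UU
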