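import Cfsg.Agent.Lib.Helper45.UU.Base
import Cfsg.Agent.Lib.Helper45.UU.AD

set_option autoImplicit false

namespace Cfsg.Agent.Lib.Helper45.UU

open Cfsg.Agent.Lib.Helper45.UC

variable {t : ℕ} {d : Fin t → ℕ} {K : Type*} [Field K]

theorem card_unitary_smul (σ : K ≃+* K) {ι : Type*} [Fintype ι] (h : Matrix ι ι K) (c : K)
    (hc : c ≠ 0) :
    Nat.card {b : Matrix ι ι K // adj σ b * (c • h) * b = c • h} =
      Nat.card {b : Matrix ι ι K // adj σ b * h * b = h} := by
  apply Nat.card_congr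
  apply Equiv.subtypeEquivRight
  intro b
  rw [Matrix.mul_smul, Matrix.smul_mul]
  constructor
  · intro e
    have e2 := congrArg (fun x => c⁻¹ • x) e
    simpa [smul_smul, inv_mul_cancel₀ hc] using e2
  · intro e
    rw [e]

end Cfsg.Agent.Lib.Helper45.UU
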