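import Cfsg.Agent.Lib.Helper45.UU.Base
import Cfsg.Agent.Lib.Helper45.UU.G1b1
import Cfsg.Agent.Lib.Helper45.UU.G1b2
import Cfsg.Agent.Lib.Helper45.UU.G1b3
import Cfsg.Agent.Lib.Helper45.UU.G1c
import Cfsg.Agent.Lib.Helper45.UU.E2
import Cfsg.Agent.Lib.Helper45.UU.AD

set_option autoImplicit false

namespace Cfsg.Agent.Lib.Helper45.UU

open Cfsg.Agent.Lib.Helper45.UC

variable {t : ℕ} {d : Fin t → ℕ} {K : Type*} [Field K]

theorem G1d_herm [Fintype K] {q : ℕ} (σ : K ≃+* K)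
    (hσ : ∀ x, σ x = x ^ q) (hσσ : ∀ x, σ (σ x) = x) (hσ1 : σ ≠ 1) (hσ2 : σ * σ = 1)
    {ι : Type*} [Fintype ι] [DecidableEq ι] (h g : Matrix ι ι K) (hg : h * g = 1)
    (hh : adj σ h = h) :
    Nat.card {b : Matrix ι ι K // adj σ b * h * b = h} =
      Nat.card ↥(Cfsg.GU (Fintype.card ι) K q) := by
  rw [card_unitary_reindex σ (Fintype.equivFin ι) h,
    card_herm_unitary_fin σ hσ hσσ hσ1 hσ2 (Fintype.card ι) _
      (g.submatrix (Fintype.equivFin ι).symm (Fintype.equivFin ι).symm) ?_ ?_,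
    card_std_unitary σ hσ]
  · rw [Matrix.submatrix_mul_equiv, hg, Matrix.submatrix_one_equiv]
  · rw [adj_submatrix, hh]

theorem card_unitary_blk [Fintype K] {q : ℕ} (hK : Fintype.card K = q ^ 2) (σ : K ≃+* K)
    (hσ : ∀ x, σ x = x ^ q) (hσσ : ∀ x, σ (σ x) = x) (hσ1 : σ ≠ 1) (hσ2 : σ * σ = 1)
    {ι : Type*} [Fintype ι] [DecidableEq ι] (h g : Matrix ι ι K) (hg : h * g = 1) (j : ℕ)
    (hh : adj σ h = (-1 : K) ^ j • h) :
    Nat.card {b : Matrix ι ι K // adj σ b * h * b = h} =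
      Nat.card ↥(Cfsg.GU (Fintype.card ι) K q) := by
  rcases neg_one_pow_eq_or K j with h1 | h1
  · rw [h1, one_smul] at hh
    exact G1d_herm σ hσ hσσ hσ1 hσ2 h g hg hh
  · rw [h1] at hh
    obtain ⟨eps, he0, he⟩ := exists_eps hK
    rw [← card_unitary_smul σ h eps he0]
    apply G1d_herm σ hσ hσσ hσ1 hσ2 (eps • h) (eps⁻¹ • g)
    · rw [mul_smul_comm, smul_mul_assoc, smul_smul, inv_mul_cancel₀ he0, one_smul, hg]
    · rw [adj_smul, hh, hσ, he, smul_smul]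
      congr 1
      ring

end Cfsg.Agent.Lib.Helper45.UU
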