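import Cfsg.Agent.Lib.Helper45.UU.Base
import Cfsg.Agent.Lib.Helper45.UU.GJ
import Cfsg.Agent.Lib.Helper45.UU.AN
import Cfsg.Agent.Lib.Helper45.UU.AD

set_option autoImplicit false

namespace Cfsg.Agent.Lib.Helper45.UU

open Cfsg.Agent.Lib.Helper45.UC

variable {t : ℕ} {d : Fin t → ℕ} {K : Type*} [Field K]

theorem FormData.adj_h (P : FormData d K) (hd : ∀ k, 1 ≤ d k) (i : ℕ) :
    adj P.σ (P.h hd i) = (-1 : K) ^ (i - 1) • P.h hd i := by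
  ext l k
  obtain ⟨l, rfl⟩ := l
  obtain ⟨k, hk⟩ := k
  have h1 := form_anti hd P.H P.rels.1 l k hk.symm
  have h2 : P.σ (P.H ⟨k, ⟨0, hd k⟩⟩ ⟨l, ⟨d l - 1, Nat.sub_lt (hd l) one_pos⟩⟩) =
      P.H ⟨l, ⟨d l - 1, Nat.sub_lt (hd l) one_pos⟩⟩ ⟨k, ⟨0, hd k⟩⟩ :=
    congrFun (congrFun P.herm ⟨l, ⟨d l - 1, Nat.sub_lt (hd l) one_pos⟩⟩) ⟨k, ⟨0, hd k⟩⟩
  have e : ∀ (p1 : d l - 1 < d k) (p2 : d k - 1 < d k),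
      (⟨d l - 1, p1⟩ : Fin (d k)) = ⟨d k - 1, p2⟩ := fun _ _ => Fin.ext (by simp only; omega)
  rw [Matrix.smul_apply, smul_eq_mul]
  show P.σ (P.H ⟨k, ⟨0, hd k⟩⟩ ⟨l, ⟨d l - 1, _⟩⟩) =
    (-1) ^ (d l - 1) * P.H ⟨l, ⟨0, hd l⟩⟩ ⟨k, ⟨d l - 1, _⟩⟩
  rw [h2, h1, e]

end Cfsg.Agent.Lib.Helper45.UU
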