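import Cfsg.Agent.Lib.Helper45.UU.Abs

set_option autoImplicit false

namespace Cfsg.Agent.Lib.Helper45.UU

variable {A B : Type*} [Ring A] [Ring B] (D : InvData A B)

theorem InvData.basic : D.s 0 = 0 ∧ D.s 1 = 1 ∧ (∀ a, D.s (-a) = - D.s a) ∧
    (∀ a b, D.s (a - b) = D.s a - D.s b) ∧ (∀ a, D.s D.lam * a = a * D.s D.lam) ∧
    (∀ a, D.p a = 0 → D.p (D.s a) = 0) ∧ (∀ a, D.p a = 1 → D.p (D.s a) = 1) := by
  have h0 : D.s 0 = 0 := by
    have := D.s_add 0 0
    simpa using this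
  have h1 : D.s 1 = 1 := by
    have h := D.s_mul (D.s 1) 1
    rw [mul_one, D.s_s, mul_one] at h
    exact h.symm
  have hneg : ∀ a, D.s (-a) = - D.s a := by
    intro a
    have := D.s_add a (-a)
    rw [add_neg_cancel, h0] at this
    exact (neg_eq_of_add_eq_zero_right this.symm).symm
  refine ⟨h0, h1, hneg, ?_, ?_, ?_, ?_⟩
  · intro a b
    rw [sub_eq_add_neg, D.s_add, hneg, sub_eq_add_neg]
  · intro a
    have := congrArg D.s (D.lam_central (D.s a))
    rw [D.s_mul, D.s_mul, D.s_s] at this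
    exact this.symm
  · intro a ha
    rw [D.p_s, ha, ← map_zero D.p, ← D.p_s, h0]
  · intro a ha
    rw [D.p_s, ha, ← map_one D.p, ← D.p_s, h1]

end Cfsg.Agent.Lib.Helper45.UU
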