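import Cfsg.Agent.Lib.Helper45.UU.Abs
import Cfsg.Agent.Lib.Helper45.UU.L0

set_option autoImplicit false

namespace Cfsg.Agent.Lib.Helper45.UU

variable {A B : Type*} [Ring A] [Ring B] (D : InvData A B)

theorem InvData.lam_tr (y : A) (hy : D.s y = y) : D.lam * y + D.s (D.lam * y) = y := by
  obtain ⟨-, -, -, -, hc, -, -⟩ := D.basic
  rw [D.s_mul, hy, ← hc, ← add_mul, D.lam_add, one_mul]

theorem InvData.card_ker [Finite A] : Nat.card {x : A // D.p x = 0} =
    Nat.card {x : A // D.p x = 0 ∧ D.s x = x} * Nat.card {x : A // D.p x = 0 ∧ D.s x = -x} := by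
  obtain ⟨h0, h1, hneg, hsub, hc, hp0, hp1⟩ := D.basic
  rw [← Nat.card_prod]
  apply Nat.card_congr
  have hT : ∀ x : A, D.s (x + D.s x) = x + D.s x := by
    intro x
    rw [D.s_add, D.s_s, add_comm]
  exact
    { toFun := fun x => (⟨x.1 + D.s x.1, by rw [map_add, x.2, hp0 _ x.2, add_zero], hT x.1⟩,
        ⟨x.1 - D.lam * (x.1 + D.s x.1), by
          rw [map_sub, map_mul, map_add, x.2, hp0 _ x.2, add_zero, mul_zero, sub_zero], by
          have h := D.lam_tr _ (hT x.1)
          rw [hsub]
          have h2 : D.s (D.lam * (x.1 + D.s x.1)) = x.1 + D.s x.1 - D.lam * (x.1 + D.s x.1) :=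
            eq_sub_of_add_eq' h
          rw [h2]
          abel⟩)
      invFun := fun yz => ⟨D.lam * yz.1.1 + yz.2.1, by
        rw [map_add, map_mul, yz.1.2.1, yz.2.2.1, mul_zero, add_zero]⟩
      left_inv := by
        intro x
        apply Subtype.ext
        simp
      right_inv := by
        rintro ⟨⟨y, hy0, hy⟩, ⟨z, hz0, hz⟩⟩
        have h := D.lam_tr y hy
        have h3 : D.lam * y + z + D.s (D.lam * y + z) = y := by
          rw [D.s_add, hz]
          calc D.lam * y + z + (D.s (D.lam * y) + -z) = D.lam * y + D.s (D.lam * y) := by abel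
            _ = y := h
        apply Prod.ext
        · apply Subtype.ext
          exact h3
        · apply Subtype.ext
          show D.lam * y + z - D.lam * (D.lam * y + z + D.s (D.lam * y + z)) = z
          rw [h3]
          abel }

end Cfsg.Agent.Lib.Helper45.UU
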