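import Cfsg.Agent.Lib.Helper45.UU.Abs
import Cfsg.Agent.Lib.Helper45.UU.L0

set_option autoImplicit false

namespace Cfsg.Agent.Lib.Helper45.UU

variable {A B : Type*} [Ring A] [Ring B] (D : InvData A B)

theorem InvData.card_sym_eq_skew [Finite A] : Nat.card {x : A // D.p x = 0 ∧ D.s x = x} =
    Nat.card {x : A // D.p x = 0 ∧ D.s x = -x} := by
  obtain ⟨h0, h1, hneg, hsub, hc, hp0, hp1⟩ := D.basic
  obtain ⟨e, he⟩ := D.eps_unit
  apply Nat.card_congr
  refine Equiv.ofBijective (fun x => ⟨D.eps * x.1, by rw [map_mul, x.2.1, mul_zero], by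
    rw [D.s_mul, x.2.2, D.s_eps, mul_neg, D.eps_central]⟩) ⟨?_, ?_⟩
  · intro x y hxy
    apply Subtype.ext
    have h : D.eps * x.1 = D.eps * y.1 := congrArg Subtype.val hxy
    exact D.eps_unit.mul_left_cancel h
  · rintro ⟨z, hz0, hz⟩
    have hz' : D.eps * (↑e⁻¹ * z) = z := by rw [← mul_assoc, ← he, Units.mul_inv, one_mul]
    refine ⟨⟨↑e⁻¹ * z, by rw [map_mul, hz0, mul_zero], ?_⟩, Subtype.ext hz'⟩
    have h2 : D.s (D.eps * (↑e⁻¹ * z)) = - (D.eps * (↑e⁻¹ * z)) := by rw [hz', hz]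
    rw [D.s_mul, D.s_eps, mul_neg, ← D.eps_central] at h2
    exact D.eps_unit.mul_left_cancel (neg_injective h2)

end Cfsg.Agent.Lib.Helper45.UU
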