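import Cfsg.Agent.Lib.Helper45.UU.Abs

set_option autoImplicit false

namespace Cfsg.Agent.Lib.Helper45.UU

variable {A B : Type*} [Ring A] [Ring B] (D : InvData A B)

theorem card_eq_of_rel {X Y : Type*} (R : X → Y → Prop) (h1 : ∀ x, ∃! y, R x y)
    (h2 : ∀ y, ∃! x, R x y) : Nat.card X = Nat.card Y := by
  choose f hf using h1
  choose g hg using h2
  exact Nat.card_congr ⟨f, g, fun x => ((hg (f x)).2 x (hf x).1).symm,
    fun y => ((hf (g y)).2 y (hg y).1).symm⟩

end Cfsg.Agent.Lib.Helper45.UU
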