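import Cfsg.Agent.Lib.Helper45.UU.Abs
import Cfsg.Agent.Lib.Helper45.UU.L0

set_option autoImplicit false

namespace Cfsg.Agent.Lib.Helper45.UU

variable {A B : Type*} [Ring A] [Ring B] (D : InvData A B)

theorem InvData.isUnit_of_p_eq_one {a : A} (h : D.p a = 1) : IsUnit a := by
  have h1 : IsNilpotent (a - 1) := D.nil _ (by rw [map_sub, h, map_one, sub_self])
  have := h1.isUnit_add_one
  rwa [sub_add_cancel] at this

theorem InvData.isUnit_of_p_isUnit {a : A} (h : IsUnit (D.p a)) : IsUnit a := by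
  obtain ⟨u, hu⟩ := h
  obtain ⟨a', ha'⟩ := D.p_surj (↑u⁻¹ : B)
  have h1 : IsUnit (a * a') := D.isUnit_of_p_eq_one (by rw [map_mul, ha', ← hu, Units.mul_inv])
  have h2 : IsUnit (a' * a) := D.isUnit_of_p_eq_one (by rw [map_mul, ha', ← hu, Units.inv_mul])
  obtain ⟨v, hv⟩ := h1
  obtain ⟨w, hw⟩ := h2
  have hr : a * (a' * ↑v⁻¹) = 1 := by rw [← mul_assoc, ← hv, Units.mul_inv]
  have hl : (↑w⁻¹ * a') * a = 1 := by rw [mul_assoc, ← hw, Units.inv_mul]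
  have heq : (↑w⁻¹ * a') = a' * ↑v⁻¹ := left_inv_eq_right_inv hl hr
  exact ⟨⟨a, a' * ↑v⁻¹, hr, by rw [← heq]; exact hl⟩, rfl⟩

end Cfsg.Agent.Lib.Helper45.UU
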