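import Cfsg.Agent.Lib.Helper45.UU.Abs
import Cfsg.Agent.Lib.Helper45.UU.L0
import Cfsg.Agent.Lib.Helper45.UU.L1u

set_option autoImplicit false

namespace Cfsg.Agent.Lib.Helper45.UU

variable {A B : Type*} [Ring A] [Ring B] (D : InvData A B)

theorem InvData.L1d1_comm (x : A) :
    Commute (1 - D.s D.lam * x) (1 + D.lam * x) := by
  obtain ⟨-, -, -, -, hl', -, -⟩ := D.basic
  have hl := D.lam_central
  have a1 : Commute (D.s D.lam) (D.lam * x) := hl' _
  have a2 : Commute x (D.lam * x) := by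
    show x * (D.lam * x) = D.lam * x * x
    rw [← mul_assoc, ← hl x]
  have c1 : Commute (D.s D.lam * x) (D.lam * x) := a1.mul_left a2
  apply Commute.sub_left
  · exact Commute.one_left _
  · exact (Commute.one_right _).add_right c1

theorem InvData.L1d1_unit (x : A) (hx : D.p x = 0) : IsUnit (1 - D.s D.lam * x) := by
  apply IsNilpotent.isUnit_one_sub
  apply D.nil
  rw [map_mul, hx, mul_zero]

theorem InvData.cayley_fwd (x : A) (hx : D.p x = 0) (hs : D.s x = -x) :
    ∃ c, D.p c = 1 ∧ D.s c * c = 1 ∧ c * (1 - D.s D.lam * x) = 1 + D.lam * x := by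
  obtain ⟨-, s1, -, ssub, hl', -, -⟩ := D.basic
  have hl := D.lam_central
  obtain ⟨W, hW⟩ := D.L1d1_unit x hx
  have hw1 : (1 - D.s D.lam * x) * (↑W⁻¹ : A) = 1 := by rw [← hW]; exact W.mul_inv
  have hw2 : (↑W⁻¹ : A) * (1 - D.s D.lam * x) = 1 := by rw [← hW]; exact W.inv_mul
  set wi : A := (↑W⁻¹ : A) with hwi
  set w : A := 1 - D.s D.lam * x with hw
  set v : A := 1 + D.lam * x with hv
  have hcomm : w * v = v * w := D.L1d1_comm x
  have hsw : D.s w = v := by
    rw [hw, ssub, s1, D.s_mul, D.s_s, hs, hv, neg_mul, sub_neg_eq_add, hl x]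
  have hsv : D.s v = w := by
    rw [hv, D.s_add, s1, D.s_mul, hs, hw, neg_mul, ← sub_eq_add_neg, hl' x]
  have h1 : D.s wi * v = 1 := by
    rw [← hsw, ← D.s_mul, hw1, s1]
  refine ⟨v * wi, ?_, ?_, ?_⟩
  · have hpw : D.p w = 1 := by rw [hw, map_sub, map_one, map_mul, hx, mul_zero, sub_zero]
    have hpv : D.p v = 1 := by rw [hv, map_add, map_one, map_mul, hx, mul_zero, add_zero]
    have : D.p w * D.p wi = 1 := by rw [← map_mul, hw1, map_one]
    rw [hpw, one_mul] at this
    rw [map_mul, hpv, this, one_mul]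
  · rw [D.s_mul, hsv]
    calc D.s wi * w * (v * wi) = D.s wi * (w * v) * wi := by simp only [mul_assoc]
      _ = D.s wi * (v * w) * wi := by rw [hcomm]
      _ = (D.s wi * v) * (w * wi) := by simp only [mul_assoc]
      _ = 1 := by rw [h1, hw1, one_mul]
  · rw [mul_assoc, hw2, mul_one]

end Cfsg.Agent.Lib.Helper45.UU
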