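import Cfsg.Agent.Lib.Helper45.UU.Abs
import Cfsg.Agent.Lib.Helper45.UU.L0
import Cfsg.Agent.Lib.Helper45.UU.L1u

set_option autoImplicit false

namespace Cfsg.Agent.Lib.Helper45.UU

variable {A B : Type*} [Ring A] [Ring B] (D : InvData A B)

theorem InvData.cayley_bwd [Finite A] (c : A) (hc : D.p c = 1) (hs : D.s c * c = 1) :
    ∃ x, D.p x = 0 ∧ D.s x = -x ∧ c * (1 - D.s D.lam * x) = 1 + D.lam * x := by
  obtain ⟨-, s1, -, ssub, hl', -, -⟩ := D.basic
  have hl := D.lam_central
  have hcu : IsUnit c := D.isUnit_of_p_isUnit (by rw [hc]; exact isUnit_one)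
  have hs' : c * D.s c = 1 := by
    obtain ⟨C, rfl⟩ := hcu
    have : D.s (C : A) = (↑C⁻¹ : A) := by
      calc D.s (C : A) = D.s (C : A) * ((C : A) * (↑C⁻¹ : A)) := by rw [C.mul_inv, mul_one]
        _ = (↑C⁻¹ : A) := by rw [← mul_assoc, hs, one_mul]
    rw [this, C.mul_inv]
  have hpv : D.p (D.lam + c * D.s D.lam) = 1 := by
    rw [map_add, map_mul, hc, one_mul, ← map_add, D.lam_add, map_one]
  obtain ⟨V, hV⟩ := D.isUnit_of_p_isUnit (a := D.lam + c * D.s D.lam) (by rw [hpv]; exact isUnit_one)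
  have hv1 : (D.lam + c * D.s D.lam) * (↑V⁻¹ : A) = 1 := by rw [← hV]; exact V.mul_inv
  have hv2 : (↑V⁻¹ : A) * (D.lam + c * D.s D.lam) = 1 := by rw [← hV]; exact V.inv_mul
  set vi : A := (↑V⁻¹ : A) with hvi
  set v : A := D.lam + c * D.s D.lam with hv
  have hcv : c * v = v * c := by
    rw [hv, mul_add, add_mul, hl c, mul_assoc c (D.s D.lam) c, hl' c]
  have hcvi : c * vi = vi * c := by
    calc c * vi = (vi * v) * c * vi := by rw [hv2, one_mul]
      _ = vi * (v * c) * vi := by simp only [mul_assoc]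
      _ = vi * (c * v) * vi := by rw [hcv]
      _ = vi * c * (v * vi) := by simp only [mul_assoc]
      _ = vi * c := by rw [hv1, mul_one]
  have hsv : D.s v = v * D.s c := by
    rw [hv, D.s_add, D.s_mul, D.s_s, add_mul, mul_assoc c, hl' (D.s c), ← mul_assoc c, hs', one_mul,
      add_comm]
  have hsvi : D.s vi = c * vi := by
    have e1 : D.s vi * D.s v = 1 := by rw [← D.s_mul, hv1, s1]
    calc D.s vi = D.s vi * (D.s v * (c * vi)) := by
          rw [hsv, mul_assoc v, ← mul_assoc (D.s c), hs, one_mul, hv1, mul_one]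
      _ = c * vi := by rw [← mul_assoc, e1, one_mul]
  refine ⟨vi * (c - 1), ?_, ?_, ?_⟩
  · rw [map_mul, map_sub, hc, map_one, sub_self, mul_zero]
  · rw [D.s_mul, ssub, s1, hsvi, ← mul_assoc, sub_mul, hs, one_mul, sub_mul, one_mul, hcvi, mul_sub,
      mul_one]
    abel
  · have key : v * (vi * (c - 1)) = c - 1 := by rw [← mul_assoc, hv1, one_mul]
    rw [hv, add_mul] at key
    rw [mul_sub, mul_one, ← mul_assoc]
    set P := c * D.s D.lam * (vi * (c - 1)) with hP
    set Q := D.lam * (vi * (c - 1)) with hQ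
    calc c - P = 1 + (c - 1) - P := by abel
      _ = 1 + (Q + P) - P := by rw [key]
      _ = 1 + Q := by abel

end Cfsg.Agent.Lib.Helper45.UU
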