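import Cfsg.Agent.Lib.Helper45.UU.Abs
import Cfsg.Agent.Lib.Helper45.UU.L0
import Cfsg.Agent.Lib.Helper45.UU.L1u

set_option autoImplicit false

namespace Cfsg.Agent.Lib.Helper45.UU

variable {A B : Type*} [Ring A] [Ring B] (D : InvData A B)

theorem InvData.L1d3_rel {c x : A} (h : c * (1 - D.s D.lam * x) = 1 + D.lam * x) :
    (D.lam + c * D.s D.lam) * x = c - 1 := by
  rw [mul_sub, mul_one, ← mul_assoc] at h
  rw [add_mul]
  calc D.lam * x + c * D.s D.lam * x = (1 + D.lam * x) + c * D.s D.lam * x - 1 := by abel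
    _ = (c - c * D.s D.lam * x) + c * D.s D.lam * x - 1 := by rw [h]
    _ = c - 1 := by abel

theorem InvData.cayley_unique : (∀ x c c' : A, D.p x = 0 → c * (1 - D.s D.lam * x) = 1 + D.lam * x →
      c' * (1 - D.s D.lam * x) = 1 + D.lam * x → c = c') ∧
    (∀ c x x' : A, D.p c = 1 → c * (1 - D.s D.lam * x) = 1 + D.lam * x →
      c * (1 - D.s D.lam * x') = 1 + D.lam * x' → x = x') := by
  constructor
  · intro x c c' hx h h'
    have hu : IsUnit (1 - D.s D.lam * x) := by
      apply IsNilpotent.isUnit_one_sub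
      apply D.nil
      rw [map_mul, hx, mul_zero]
    exact hu.mul_left_inj.mp (h.trans h'.symm)
  · intro c x x' hc h h'
    have hpv : D.p (D.lam + c * D.s D.lam) = 1 := by
      rw [map_add, map_mul, hc, one_mul, ← map_add, D.lam_add, map_one]
    have hu : IsUnit (D.lam + c * D.s D.lam) :=
      D.isUnit_of_p_isUnit (by rw [hpv]; exact isUnit_one)
    exact hu.mul_right_inj.mp ((D.L1d3_rel h).trans (D.L1d3_rel h').symm)

end Cfsg.Agent.Lib.Helper45.UU
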