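import Cfsg.Agent.Lib.Helper45.UU.Abs
import Cfsg.Agent.Lib.Helper45.UU.L1d0
import Cfsg.Agent.Lib.Helper45.UU.L1d1
import Cfsg.Agent.Lib.Helper45.UU.L1d2
import Cfsg.Agent.Lib.Helper45.UU.L1d3

set_option autoImplicit false

namespace Cfsg.Agent.Lib.Helper45.UU

variable {A B : Type*} [Ring A] [Ring B] (D : InvData A B)

theorem InvData.card_cayley [Finite A] : Nat.card {x : A // D.p x = 0 ∧ D.s x = -x} =
    Nat.card {c : A // D.p c = 1 ∧ D.s c * c = 1} := by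
  apply card_eq_of_rel (fun x c => c.1 * (1 - D.s D.lam * x.1) = 1 + D.lam * x.1)
  · intro x
    obtain ⟨c, h1, h2, h3⟩ := D.cayley_fwd x.1 x.2.1 x.2.2
    exact ⟨⟨c, h1, h2⟩, h3, fun c' hc' => Subtype.ext (D.cayley_unique.1 x.1 c'.1 c x.2.1 hc' h3)⟩
  · intro c
    obtain ⟨x, h1, h2, h3⟩ := D.cayley_bwd c.1 c.2.1 c.2.2
    exact ⟨⟨x, h1, h2⟩, h3, fun x' hx' => Subtype.ext (D.cayley_unique.2 c.1 x'.1 x c.2.1 hx' h3)⟩

end Cfsg.Agent.Lib.Helper45.UU
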