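import Cfsg.Agent.Lib.Helper45.UU.Abs
import Cfsg.Agent.Lib.Helper45.UU.L0

set_option autoImplicit false

namespace Cfsg.Agent.Lib.Helper45.UU

variable {A B : Type*} [Ring A] [Ring B] (D : InvData A B)

theorem InvData.card_translate : Nat.card {c : A // D.p c = 1} = Nat.card {x : A // D.p x = 0} ∧
    Nat.card {y : A // D.p y = 1 ∧ D.s y = y} = Nat.card {x : A // D.p x = 0 ∧ D.s x = x} := by
  obtain ⟨h0, h1, hneg, hsub, hc, hp0, hp1⟩ := D.basic
  constructor
  · apply Nat.card_congr
    exact
      { toFun := fun c => ⟨c.1 - 1, by rw [map_sub, c.2, map_one, sub_self]⟩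
        invFun := fun x => ⟨x.1 + 1, by rw [map_add, x.2, map_one, zero_add]⟩
        left_inv := fun c => Subtype.ext (sub_add_cancel _ _)
        right_inv := fun x => Subtype.ext (add_sub_cancel_right _ _) }
  · apply Nat.card_congr
    exact
      { toFun := fun c => ⟨c.1 - 1, by rw [map_sub, c.2.1, map_one, sub_self], by
          rw [hsub, c.2.2, h1]⟩
        invFun := fun x => ⟨x.1 + 1, by rw [map_add, x.2.1, map_one, zero_add], by
          rw [D.s_add, x.2.2, h1]⟩
        left_inv := fun c => Subtype.ext (sub_add_cancel _ _)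
        right_inv := fun x => Subtype.ext (add_sub_cancel_right _ _) }

end Cfsg.Agent.Lib.Helper45.UU
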