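import Cfsg.Agent.Lib.Helper45.UU.Abs
import Cfsg.Agent.Lib.Helper45.UU.L0
import Cfsg.Agent.Lib.Helper45.UU.L1u

set_option autoImplicit false

namespace Cfsg.Agent.Lib.Helper45.UU

variable {A B : Type*} [Ring A] [Ring B] (D : InvData A B)

theorem InvData.card_fibre [Finite A] (c₀ : A) (h0 : D.p c₀ = 1) :
    Nat.card {c : A // D.p c = 1 ∧ D.s c * c = D.s c₀ * c₀} =
      Nat.card {w : A // D.p w = 1 ∧ D.s w * w = 1} := by
  obtain ⟨-, h1, -, -, -, -, -⟩ := D.basic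
  obtain ⟨e, he⟩ := D.isUnit_of_p_isUnit (a := c₀) (by rw [h0]; exact isUnit_one)
  have hpe : D.p (↑e⁻¹ : A) = 1 := by
    have : D.p (c₀ * ↑e⁻¹) = 1 := by rw [← he, Units.mul_inv, map_one]
    rwa [map_mul, h0, one_mul] at this
  have hs1 : D.s (↑e⁻¹ : A) * D.s c₀ = 1 := by
    rw [← D.s_mul, ← he, Units.mul_inv, h1]
  have hs2 : D.s c₀ * D.s (↑e⁻¹ : A) = 1 := by
    rw [← D.s_mul, ← he, Units.inv_mul, h1]
  apply Nat.card_congr
  exact
    { toFun := fun c => ⟨c.1 * ↑e⁻¹, by rw [map_mul, c.2.1, hpe, one_mul], by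
        rw [D.s_mul]
        calc D.s (↑e⁻¹ : A) * D.s c.1 * (c.1 * ↑e⁻¹) = D.s (↑e⁻¹ : A) * (D.s c.1 * c.1) * ↑e⁻¹ := by
              simp only [mul_assoc]
          _ = (D.s (↑e⁻¹ : A) * D.s c₀) * (c₀ * ↑e⁻¹) := by rw [c.2.2]; simp only [mul_assoc]
          _ = 1 := by rw [hs1, ← he, Units.mul_inv, one_mul]⟩
      invFun := fun w => ⟨w.1 * c₀, by rw [map_mul, w.2.1, h0, one_mul], by
        rw [D.s_mul]
        calc D.s c₀ * D.s w.1 * (w.1 * c₀) = D.s c₀ * (D.s w.1 * w.1) * c₀ := by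
              simp only [mul_assoc]
          _ = D.s c₀ * c₀ := by rw [w.2.2, mul_one]⟩
      left_inv := by
        intro c
        apply Subtype.ext
        show c.1 * ↑e⁻¹ * c₀ = c.1
        have h5 : (↑e⁻¹ : A) * c₀ = 1 := by rw [← he, Units.inv_mul]
        rw [mul_assoc, h5, mul_one]
      right_inv := by
        intro w
        apply Subtype.ext
        show w.1 * c₀ * ↑e⁻¹ = w.1
        have h5 : c₀ * (↑e⁻¹ : A) = 1 := by rw [← he, Units.mul_inv]
        rw [mul_assoc, h5, mul_one] }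

end Cfsg.Agent.Lib.Helper45.UU
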