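import Cfsg.Agent.Lib.Helper45.UU.Abs

set_option autoImplicit false

namespace Cfsg.Agent.Lib.Helper45.UU

theorem surj_of_card_fibres {X Y : Type*} [Finite X] [Finite Y] (f : X → Y) (m : ℕ)
    (hf : ∀ x₀ : X, Nat.card {x : X // f x = f x₀} = m) (hc : Nat.card X = Nat.card Y * m)
    (hX : Nonempty X) : Function.Surjective f := by
  classical
  haveI : Fintype (Set.range f) := Fintype.ofFinite _
  have hXpos : 0 < Nat.card X := Nat.card_pos
  have hm : 0 < m := by
    rcases Nat.eq_zero_or_pos m with h | h
    · rw [h, mul_zero] at hc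
      omega
    · exact h
  have h1 : Nat.card X = Nat.card (Set.range f) * m := by
    have e : X ≃ (Σ y : Set.range f, {x : X // f x = y.1}) :=
      { toFun := fun x => ⟨⟨f x, x, rfl⟩, ⟨x, rfl⟩⟩
        invFun := fun z => z.2.1
        left_inv := fun x => rfl
        right_inv := by
          rintro ⟨⟨y, hy⟩, ⟨x, hx⟩⟩
          simp only at hx
          subst hx
          rfl }
    rw [Nat.card_congr e, Nat.card_sigma]
    have : ∀ y : Set.range f, Nat.card {x : X // f x = y.1} = m := by
      rintro ⟨y, x₀, rfl⟩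
      exact hf x₀
    simp only [this]
    rw [Finset.sum_const, Finset.card_univ, smul_eq_mul, Nat.card_eq_fintype_card]
  have h2 : Nat.card (Set.range f) = Nat.card Y := by
    have := h1.symm.trans hc
    exact Nat.eq_of_mul_eq_mul_right hm this
  have h3 : Function.Bijective (Subtype.val : Set.range f → Y) :=
    (Nat.bijective_iff_injective_and_card _).2 ⟨Subtype.val_injective, h2⟩
  intro y
  obtain ⟨⟨_, x, rfl⟩, hz⟩ := h3.2 y
  exact ⟨x, hz⟩

end Cfsg.Agent.Lib.Helper45.UU
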