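import Cfsg.Agent.Lib.Helper45.UU.Abs
import Cfsg.Agent.Lib.Helper45.UU.L1b
import Cfsg.Agent.Lib.Helper45.UU.L1d
import Cfsg.Agent.Lib.Helper45.UU.L1e1
import Cfsg.Agent.Lib.Helper45.UU.L1e2
import Cfsg.Agent.Lib.Helper45.UU.L1e3

set_option autoImplicit false

namespace Cfsg.Agent.Lib.Helper45.UU

variable {A B : Type*} [Ring A] [Ring B] (D : InvData A B)

theorem InvData.norm_surj [Finite A] (y : A) (hy : D.p y = 1) (hs : D.s y = y) :
    ∃ c, D.p c = 1 ∧ D.s c * c = y := by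
  obtain ⟨h0, h1, hneg, hsub, hc, hp0, hp1⟩ := D.basic
  let f : {c : A // D.p c = 1} → {y : A // D.p y = 1 ∧ D.s y = y} := fun c =>
    ⟨D.s c.1 * c.1, by rw [map_mul, hp1 _ c.2, c.2, one_mul], by rw [D.s_mul, D.s_s]⟩
  have hsurj : Function.Surjective f := by
    apply surj_of_card_fibres f (Nat.card {w : A // D.p w = 1 ∧ D.s w * w = 1})
    · intro x₀
      rw [← D.card_fibre x₀.1 x₀.2]
      apply Nat.card_congr
      exact
        { toFun := fun x => ⟨x.1.1, x.1.2, congrArg Subtype.val x.2⟩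
          invFun := fun c => ⟨⟨c.1, c.2.1⟩, Subtype.ext c.2.2⟩
          left_inv := fun x => rfl
          right_inv := fun c => rfl }
    · rw [D.card_translate.1, D.card_translate.2, D.card_ker, D.card_cayley]
    · exact ⟨⟨1, map_one _⟩⟩
  obtain ⟨c, hc⟩ := hsurj ⟨y, hy, hs⟩
  exact ⟨c.1, c.2, congrArg Subtype.val hc⟩

end Cfsg.Agent.Lib.Helper45.UU
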