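import Cfsg.Agent.Lib.Helper45.UU.Abs
import Cfsg.Agent.Lib.Helper45.UU.L1e
import Cfsg.Agent.Lib.Helper45.UU.L1u
import Cfsg.Agent.Lib.Helper45.UU.L0

set_option autoImplicit false

namespace Cfsg.Agent.Lib.Helper45.UU

variable {A B : Type*} [Ring A] [Ring B] (D : InvData A B)

theorem InvData.lift_unitary [Finite A] (b : B) (hb : D.t b * b = 1) :
    ∃ a, D.p a = b ∧ D.s a * a = 1 := by
  obtain ⟨a0, ha0⟩ := D.p_surj b
  obtain ⟨-, hs1, -, -, -, -, -⟩ := D.basic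
  have hy1 : D.p (D.s a0 * a0) = 1 := by
    rw [map_mul, D.p_s, ha0, hb]
  have hy2 : D.s (D.s a0 * a0) = D.s a0 * a0 := by
    rw [D.s_mul, D.s_s]
  obtain ⟨c, hc1, hc2⟩ := D.norm_surj _ hy1 hy2
  have hcu : IsUnit c := D.isUnit_of_p_isUnit (by rw [hc1]; exact isUnit_one)
  obtain ⟨u, rfl⟩ := hcu
  refine ⟨a0 * ↑u⁻¹, ?_, ?_⟩
  · have h1 : D.p (↑u⁻¹ : A) = 1 := by
      have h2 : D.p (↑u : A) * D.p (↑u⁻¹ : A) = 1 := by
        rw [← map_mul, Units.mul_inv, map_one]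
      rw [hc1, one_mul] at h2
      exact h2
    rw [map_mul, ha0, h1, mul_one]
  · have h3 : D.s (↑u⁻¹ : A) * D.s (↑u : A) = 1 := by
      rw [← D.s_mul, Units.mul_inv, hs1]
    calc D.s (a0 * ↑u⁻¹) * (a0 * ↑u⁻¹) = D.s (↑u⁻¹ : A) * (D.s a0 * a0) * ↑u⁻¹ := by
          rw [D.s_mul]; simp only [mul_assoc]
      _ = D.s (↑u⁻¹ : A) * (D.s (↑u : A) * ↑u) * ↑u⁻¹ := by rw [hc2]
      _ = (D.s (↑u⁻¹ : A) * D.s (↑u : A)) * (↑u * ↑u⁻¹) := by simp only [mul_assoc]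
      _ = 1 := by rw [h3, Units.mul_inv, one_mul]

end Cfsg.Agent.Lib.Helper45.UU
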