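import Cfsg.Agent.Lib.Helper45.UU.Abs
import Cfsg.Agent.Lib.Helper45.UU.L1f
import Cfsg.Agent.Lib.Helper45.UU.L1u
import Cfsg.Agent.Lib.Helper45.UU.L0

set_option autoImplicit false

namespace Cfsg.Agent.Lib.Helper45.UU

variable {A B : Type*} [Ring A] [Ring B] (D : InvData A B)

theorem InvData.card_unitary [Finite A] : Nat.card {a : A // D.s a * a = 1} =
    Nat.card {c : A // D.p c = 1 ∧ D.s c * c = 1} * Nat.card {b : B // D.t b * b = 1} := by
  classical
  have hcomm : ∀ x y : A, x * y = 1 → y * x = 1 := fun x y h => mul_eq_one_comm.mp h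
  let lift : B → A := fun b => if h : D.t b * b = 1 then (D.lift_unitary b h).choose else 0
  have lift1 : ∀ b, D.t b * b = 1 → D.p (lift b) = b := by
    intro b h
    simp only [lift, dif_pos h]
    exact (D.lift_unitary b h).choose_spec.1
  have lift2 : ∀ b, D.t b * b = 1 → D.s (lift b) * lift b = 1 := by
    intro b h
    simp only [lift, dif_pos h]
    exact (D.lift_unitary b h).choose_spec.2
  have hp : ∀ a, D.s a * a = 1 → D.t (D.p a) * D.p a = 1 := by
    intro a h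
    rw [← D.p_s, ← map_mul, h, map_one]
  rw [← Nat.card_prod]
  apply Nat.card_congr
  refine ⟨fun a => (⟨a.1 * D.s (lift (D.p a.1)), ?_, ?_⟩, ⟨D.p a.1, hp a.1 a.2⟩),
    fun x => ⟨x.1.1 * lift x.2.1, ?_⟩, ?_, ?_⟩
  · rw [map_mul, D.p_s, lift1 _ (hp a.1 a.2), ← D.p_s, ← map_mul, hcomm _ _ a.2, map_one]
  · rw [D.s_mul, D.s_s]
    calc lift (D.p a.1) * D.s a.1 * (a.1 * D.s (lift (D.p a.1)))
        = lift (D.p a.1) * (D.s a.1 * a.1) * D.s (lift (D.p a.1)) := by simp only [mul_assoc]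
      _ = 1 := by rw [a.2, mul_one, hcomm _ _ (lift2 _ (hp a.1 a.2))]
  · rw [D.s_mul]
    calc D.s (lift x.2.1) * D.s x.1.1 * (x.1.1 * lift x.2.1)
        = D.s (lift x.2.1) * (D.s x.1.1 * x.1.1) * lift x.2.1 := by simp only [mul_assoc]
      _ = 1 := by rw [x.1.2.2, mul_one, lift2 _ x.2.2]
  · intro a
    apply Subtype.ext
    show a.1 * D.s (lift (D.p a.1)) * lift (D.p a.1) = a.1
    rw [mul_assoc, lift2 _ (hp a.1 a.2), mul_one]
  · rintro ⟨⟨c, hc1, hc2⟩, ⟨b, hb⟩⟩
    have h1 : D.p (c * lift b) = b := by rw [map_mul, hc1, one_mul, lift1 b hb]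
    apply Prod.ext
    · apply Subtype.ext
      show c * lift b * D.s (lift (D.p (c * lift b))) = c
      rw [h1, mul_assoc, hcomm _ _ (lift2 b hb), mul_one]
    · apply Subtype.ext
      exact h1

end Cfsg.Agent.Lib.Helper45.UU
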