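import Cfsg.Agent.Lib.Helper45.UU.Abs
import Cfsg.Agent.Lib.Helper45.UU.L1g
import Cfsg.Agent.Lib.Helper45.UU.L1b
import Cfsg.Agent.Lib.Helper45.UU.L1c
import Cfsg.Agent.Lib.Helper45.UU.L1d

set_option autoImplicit false

namespace Cfsg.Agent.Lib.Helper45.UU

variable {A B : Type*} [Ring A] [Ring B] (D : InvData A B)

theorem InvData.main [Finite A] : Nat.card {a : A // D.s a * a = 1} ^ 2 =
    Nat.card {x : A // D.p x = 0} * Nat.card {b : B // D.t b * b = 1} ^ 2 := by
  rw [D.card_unitary, D.card_ker, D.card_sym_eq_skew, D.card_cayley]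
  ring

end Cfsg.Agent.Lib.Helper45.UU
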