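import Cfsg.Agent.Lib.Helper45.UU.Base
import Cfsg.Agent.Lib.Helper44.GUConj
import Cfsg.Agent.Lib.Helper45.UU.AD

set_option autoImplicit false

namespace Cfsg.Agent.Lib.Helper45.UU

open Cfsg.Agent.Lib.Helper45.UC

variable {t : ℕ} {d : Fin t → ℕ} {K : Type*} [Field K]

theorem T1a_mem_GU {q n : ℕ} (σ : K ≃+* K) (hσ : ∀ x, σ x = x ^ q) (g : GL (Fin n) K) :
    g ∈ Cfsg.GU n K q ↔ adj σ (g : Matrix (Fin n) (Fin n) K) * (g : Matrix (Fin n) (Fin n) K) = 1 := by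
  rw [Cfsg.Agent.Lib.Helper44.mem_GU_iff (σ : K →+* K) (fun x => hσ x) g, (adj_eq σ _).2.2]

theorem card_centralizer_GU {q n : ℕ} (σ : K ≃+* K) (hσ : ∀ x, σ x = x ^ q)
    (u : ↥(Cfsg.GU n K q)) :
    Nat.card ↥(Subgroup.centralizer ({u} : Set ↥(Cfsg.GU n K q))) =
      Nat.card {g : Matrix (Fin n) (Fin n) K //
        g * ((u : GL (Fin n) K) : Matrix (Fin n) (Fin n) K) =
          ((u : GL (Fin n) K) : Matrix (Fin n) (Fin n) K) * g ∧ adj σ g * g = 1} := by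
  refine Nat.card_congr (Equiv.ofBijective
    (fun x => ⟨((x.1 : GL (Fin n) K) : Matrix (Fin n) (Fin n) K), ?_, ?_⟩) ⟨?_, ?_⟩)
  · have h := Subgroup.mem_centralizer_singleton_iff.1 x.2
    have h2 := congrArg (fun y : ↥(Cfsg.GU n K q) => ((y : GL (Fin n) K) : Matrix (Fin n) (Fin n) K)) h
    simpa using h2
  · exact (T1a_mem_GU σ hσ _).1 x.1.2
  · intro x y hxy
    have h := congrArg Subtype.val hxy
    apply Subtype.ext
    apply Subtype.ext
    apply Units.ext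
    exact h
  · rintro ⟨g, hg, hgg⟩
    have hgg' : g * adj σ g = 1 := mul_eq_one_comm.1 hgg
    let G0 : GL (Fin n) K := ⟨g, adj σ g, hgg', hgg⟩
    have hG0 : G0 ∈ Cfsg.GU n K q := (T1a_mem_GU σ hσ G0).2 hgg
    refine ⟨⟨⟨G0, hG0⟩, ?_⟩, rfl⟩
    rw [Subgroup.mem_centralizer_singleton_iff]
    apply Subtype.ext
    apply Units.ext
    exact hg

end Cfsg.Agent.Lib.Helper45.UU
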