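import Cfsg.Agent.Lib.Helper45.UU.Base
import Cfsg.Agent.Lib.Helper45.UU.AD

set_option autoImplicit false

namespace Cfsg.Agent.Lib.Helper45.UU

open Cfsg.Agent.Lib.Helper45.UC

variable {t : ℕ} {d : Fin t → ℕ} {K : Type*} [Field K]

theorem card_conj_transport (σ : K ≃+* K) {ι : Type*} [Fintype ι] [DecidableEq ι]
    (c c' J u : Matrix ι ι K) (h1 : c * c' = 1) (h2 : c' * c = 1) (hc : c * J = u * c) :
    Nat.card {g : Matrix ι ι K // g * u = u * g ∧ adj σ g * g = 1} =
      Nat.card {a : Matrix ι ι K // a * J = J * a ∧ adj σ a * (adj σ c * c) * a = adj σ c * c} := by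
  have h1' : ∀ x : Matrix ι ι K, c * (c' * x) = x := fun x => by
    rw [← Matrix.mul_assoc, h1, Matrix.one_mul]
  have h2' : ∀ x : Matrix ι ι K, c' * (c * x) = x := fun x => by
    rw [← Matrix.mul_assoc, h2, Matrix.one_mul]
  have k1 : adj σ c' * adj σ c = 1 := by rw [← adj_mul, h1, adj_one]
  have k2 : adj σ c * adj σ c' = 1 := by rw [← adj_mul, h2, adj_one]
  have k1' : ∀ x : Matrix ι ι K, adj σ c' * (adj σ c * x) = x := fun x => by
    rw [← Matrix.mul_assoc, k1, Matrix.one_mul]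
  have hc' : ∀ x : Matrix ι ι K, c * (J * x) = u * (c * x) := fun x => by
    rw [← Matrix.mul_assoc, hc, Matrix.mul_assoc]
  have hJ : J * c' = c' * u := by
    calc J * c' = c' * (c * (J * c')) := (h2' _).symm
      _ = c' * (u * (c * c')) := by rw [hc']
      _ = c' * u := by rw [h1, Matrix.mul_one]
  have hJ' : ∀ x : Matrix ι ι K, J * (c' * x) = c' * (u * x) := fun x => by
    rw [← Matrix.mul_assoc, hJ, Matrix.mul_assoc]
  refine Nat.card_congr
    { toFun := fun g => ⟨c' * g.1 * c, ?_, ?_⟩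
      invFun := fun a => ⟨c * a.1 * c', ?_, ?_⟩
      left_inv := ?_
      right_inv := ?_ }
  · obtain ⟨g, hg, hgg⟩ := g
    have hg' : ∀ x : Matrix ι ι K, g * (u * x) = u * (g * x) := fun x => by
      rw [← Matrix.mul_assoc, hg, Matrix.mul_assoc]
    simp only [Matrix.mul_assoc, hc, hJ', hg']
  · obtain ⟨g, hg, hgg⟩ := g
    have hgg' : ∀ x : Matrix ι ι K, adj σ g * (g * x) = x := fun x => by
      rw [← Matrix.mul_assoc, hgg, Matrix.one_mul]
    simp only [adj_mul, Matrix.mul_assoc, k1', h1', hgg']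
  · obtain ⟨a, ha, haa⟩ := a
    have ha' : ∀ x : Matrix ι ι K, a * (J * x) = J * (a * x) := fun x => by
      rw [← Matrix.mul_assoc, ha, Matrix.mul_assoc]
    simp only [Matrix.mul_assoc, ← hJ, ha', hc']
  · obtain ⟨a, ha, haa⟩ := a
    have haa' : ∀ x : Matrix ι ι K, adj σ a * (adj σ c * (c * (a * x))) = adj σ c * (c * x) :=
      fun x => by
        have := congrArg (fun y => y * x) haa
        simpa only [Matrix.mul_assoc] using this
    simp only [adj_mul, Matrix.mul_assoc, haa', k1', h1]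
  · rintro ⟨g, hg, hgg⟩
    apply Subtype.ext
    simp only [Matrix.mul_assoc, h1', h1, Matrix.mul_one]
  · rintro ⟨a, ha, haa⟩
    apply Subtype.ext
    simp only [Matrix.mul_assoc, h2', h2, Matrix.mul_one]

end Cfsg.Agent.Lib.Helper45.UU
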