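import Cfsg.Agent.Lib.Helper45.UU.Base
import Cfsg.Agent.Lib.Helper45.UU.AD

set_option autoImplicit false

namespace Cfsg.Agent.Lib.Helper45.UU

open Cfsg.Agent.Lib.Helper45.UC

variable {t : ℕ} {d : Fin t → ℕ} {K : Type*} [Field K]

theorem card_reindex_transport (σ : K ≃+* K) {ι κ : Type*} [Fintype ι] [Fintype κ]
    [DecidableEq ι] [DecidableEq κ] (e : κ ≃ ι) (J : Matrix κ κ K) (H : Matrix ι ι K) :
    Nat.card {a : Matrix ι ι K // a * Matrix.reindex e e J = Matrix.reindex e e J * a ∧
        adj σ a * H * a = H} =
      Nat.card {a : Matrix κ κ K // a * J = J * a ∧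
        adj σ a * H.submatrix e e * a = H.submatrix e e} := by
  have inj : ∀ X Y : Matrix ι ι K, X.submatrix e e = Y.submatrix e e ↔ X = Y := fun X Y =>
    (Matrix.reindex e.symm e.symm).injective.eq_iff (a := X) (b := Y)
  have hJ : (Matrix.reindex e e J).submatrix e e = J := by
    ext i j
    simp
  refine Nat.card_congr (Equiv.subtypeEquiv (Matrix.reindex e.symm e.symm) ?_)
  intro a
  have ha : (Matrix.reindex e.symm e.symm) a = a.submatrix e e := rfl
  rw [ha]
  constructor
  · rintro ⟨h1, h2⟩
    constructor
    · have := congrArg (fun X => X.submatrix e e) h1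
      simp only [← Matrix.submatrix_mul_equiv _ _ e e e, hJ] at this
      exact this
    · have := congrArg (fun X => X.submatrix e e) h2
      simp only [← Matrix.submatrix_mul_equiv _ _ e e e] at this
      rw [adj_submatrix]
      exact this
  · rintro ⟨h1, h2⟩
    constructor
    · rw [← inj]
      simp only [← Matrix.submatrix_mul_equiv _ _ e e e, hJ]
      exact h1
    · rw [← inj]
      simp only [← Matrix.submatrix_mul_equiv _ _ e e e]
      rw [adj_submatrix] at h2
      exact h2

end Cfsg.Agent.Lib.Helper45.UU
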