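import Cfsg.Agent.Lib.Helper45.UU.Base
import Cfsg.Agent.Lib.Helper45.UU.AD

set_option autoImplicit false

namespace Cfsg.Agent.Lib.Helper45.UU

open Cfsg.Agent.Lib.Helper45.UC

variable {t : ℕ} {d : Fin t → ℕ} {K : Type*} [Field K]

theorem form_fields (σ : K ≃+* K) (hσσ : ∀ x, σ (σ x) = x) {ι κ : Type*} [Fintype ι] [Fintype κ]
    [DecidableEq ι] [DecidableEq κ] (e : κ ≃ ι) (J : Matrix κ κ K) (c c' u : Matrix ι ι K)
    (h1 : c * c' = 1) (h2 : c' * c = 1) (hc : c * Matrix.reindex e e J = u * c)
    (hu : adj σ u * u = 1) :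
    (adj σ c * c).submatrix e e * (c' * adj σ c').submatrix e e = 1 ∧
    (c' * adj σ c').submatrix e e * (adj σ c * c).submatrix e e = 1 ∧
    adj σ ((adj σ c * c).submatrix e e) = (adj σ c * c).submatrix e e ∧
    adj σ J * (adj σ c * c).submatrix e e * J = (adj σ c * c).submatrix e e := by
  have h1' : ∀ x : Matrix ι ι K, c * (c' * x) = x := fun x => by
    rw [← Matrix.mul_assoc, h1, Matrix.one_mul]
  have k1 : adj σ c' * adj σ c = 1 := by rw [← adj_mul, h1, adj_one]
  have k2 : adj σ c * adj σ c' = 1 := by rw [← adj_mul, h2, adj_one]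
  have k1' : ∀ x : Matrix ι ι K, adj σ c' * (adj σ c * x) = x := fun x => by
    rw [← Matrix.mul_assoc, k1, Matrix.one_mul]
  have hu' : ∀ x : Matrix ι ι K, adj σ u * (u * x) = x := fun x => by
    rw [← Matrix.mul_assoc, hu, Matrix.one_mul]
  have hJ : (Matrix.reindex e e J).submatrix e e = J := by
    ext i j
    simp
  refine ⟨?_, ?_, ?_, ?_⟩
  · rw [Matrix.submatrix_mul_equiv]
    simp only [Matrix.mul_assoc, h1', k2]
    exact Matrix.submatrix_one_equiv e
  · rw [Matrix.submatrix_mul_equiv]
    simp only [Matrix.mul_assoc, k1', h2]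
    exact Matrix.submatrix_one_equiv e
  · rw [adj_submatrix, adj_mul, adj_adj σ hσσ]
  · have e1 : adj σ J = (adj σ (Matrix.reindex e e J)).submatrix e e := by
      rw [← adj_submatrix, hJ]
    have e2 : adj σ (Matrix.reindex e e J) * (adj σ c * c) * Matrix.reindex e e J = adj σ c * c := by
      have : adj σ (Matrix.reindex e e J) * adj σ c = adj σ c * adj σ u := by
        rw [← adj_mul, hc, adj_mul]
      rw [← Matrix.mul_assoc, this, Matrix.mul_assoc, Matrix.mul_assoc, hc]
      simp only [hu']
    calc adj σ J * (adj σ c * c).submatrix e e * J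
        = (adj σ (Matrix.reindex e e J)).submatrix e e * (adj σ c * c).submatrix e e *
            (Matrix.reindex e e J).submatrix e e := by rw [← e1, hJ]
      _ = (adj σ (Matrix.reindex e e J) * (adj σ c * c) * Matrix.reindex e e J).submatrix e e := by
          rw [Matrix.submatrix_mul_equiv, Matrix.submatrix_mul_equiv]
      _ = (adj σ c * c).submatrix e e := by rw [e2]

end Cfsg.Agent.Lib.Helper45.UU
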