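import Cfsg.Agent.Lib.Helper45.UU.Base
import Cfsg.Agent.Lib.Helper45.UU.T1a
import Cfsg.Agent.Lib.Helper45.UU.T1b
import Cfsg.Agent.Lib.Helper45.UU.T1c
import Cfsg.Agent.Lib.Helper45.UU.T1d

set_option autoImplicit false

namespace Cfsg.Agent.Lib.Helper45.UU

open Cfsg.Agent.Lib.Helper45.UC

variable {t : ℕ} {d : Fin t → ℕ} {K : Type*} [Field K]

theorem exists_formData [Fintype K] {q n : ℕ} (σ : K ≃+* K) (hσ : ∀ x, σ x = x ^ q)
    (hσσ : ∀ x, σ (σ x) = x) (e : Ix d ≃ Fin n) (u : ↥(Cfsg.GU n K q))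
    (hu : IsConj (Matrix.reindex e e (Cfsg.jordanTypeMatrix d K))
      ((u : GL (Fin n) K) : Matrix (Fin n) (Fin n) K)) :
    ∃ P : FormData d K, P.σ = σ ∧
      Nat.card ↥(Subgroup.centralizer ({u} : Set ↥(Cfsg.GU n K q))) =
        Nat.card {a : Matrix (Ix d) (Ix d) K // Comm d a ∧ adj P.σ a * P.H * a = P.H} := by
  obtain ⟨c, hc⟩ := hu
  have hc' : (c : Matrix (Fin n) (Fin n) K) * Matrix.reindex e e (Cfsg.jordanTypeMatrix d K) =
      ((u : GL (Fin n) K) : Matrix (Fin n) (Fin n) K) * (c : Matrix (Fin n) (Fin n) K) := hc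
  have h1 : (c : Matrix (Fin n) (Fin n) K) * ((c⁻¹ : (Matrix (Fin n) (Fin n) K)ˣ) :
      Matrix (Fin n) (Fin n) K) = 1 := c.mul_inv
  have h2 : ((c⁻¹ : (Matrix (Fin n) (Fin n) K)ˣ) : Matrix (Fin n) (Fin n) K) *
      (c : Matrix (Fin n) (Fin n) K) = 1 := c.inv_mul
  have huu : adj σ ((u : GL (Fin n) K) : Matrix (Fin n) (Fin n) K) *
      ((u : GL (Fin n) K) : Matrix (Fin n) (Fin n) K) = 1 := (T1a_mem_GU σ hσ _).1 u.2
  obtain ⟨f1, f2, f3, f4⟩ := form_fields σ hσσ e (Cfsg.jordanTypeMatrix d K) _ _ _ h1 h2 hc' huu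
  refine ⟨{ σ := σ, σσ := hσσ, H := _, G := _, HG := f1, GH := f2, herm := f3, inv := f4 }, rfl, ?_⟩
  rw [card_centralizer_GU σ hσ u, card_conj_transport σ _ _ _ _ h1 h2 hc',
    card_reindex_transport σ e]
  rfl

end Cfsg.Agent.Lib.Helper45.UU
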