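import Cfsg.Agent.Lib.Helper45.UU.Base
import Cfsg.Agent.Lib.Helper45.UU.DD

set_option autoImplicit false

namespace Cfsg.Agent.Lib.Helper45.UU

open Cfsg.Agent.Lib.Helper45.UC

variable {t : ℕ} {d : Fin t → ℕ} {K : Type*} [Field K]

theorem card_unitary_CA (P : FormData d K) (hd : ∀ k, 1 ≤ d k) (lam eps : K)
    (hlam : lam + P.σ lam = 1) (heps : eps ≠ 0) (heps' : P.σ eps = - eps) :
    Nat.card {a : CA d K // (mkData P hd lam eps hlam heps heps').s a * a = 1} =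
      Nat.card {a : Matrix (Ix d) (Ix d) K // Comm d a ∧ adj P.σ a * P.H * a = P.H} := by
  have key : ∀ a : CA d K, (mkData P hd lam eps hlam heps heps').s a * a = 1 ↔
      adj P.σ a.1 * P.H * a.1 = P.H := by
    intro a
    rw [← P.sg_mul_eq_one_iff, Subtype.ext_iff]
    rfl
  apply Nat.card_congr
  refine ⟨fun a => ⟨a.1.1, (mem_CA_iff a.1.1).1 a.1.2, (key a.1).1 a.2⟩,
    fun a => ⟨⟨a.1, (mem_CA_iff a.1).2 a.2.1⟩, (key _).2 a.2.2⟩, ?_, ?_⟩
  · intro a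
    rfl
  · intro a
    rfl

end Cfsg.Agent.Lib.Helper45.UU
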