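import Cfsg.Agent.Lib.Helper45.UU.Base

set_option autoImplicit false

namespace Cfsg.Agent.Lib.Helper45.UU

open Cfsg.Agent.Lib.Helper45.UC

variable {t : ℕ} {d : Fin t → ℕ} {K : Type*} [Field K]

theorem card_blk (i : ℕ) : Fintype.card (Blk d i) = cnt d i := by
  exact Fintype.card_subtype _

end Cfsg.Agent.Lib.Helper45.UU
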