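import Mathlib

set_option autoImplicit false

namespace Cfsg.Agent.Lib.Helper45.UU

theorem final_arith {q γ N : ℕ} (D : ℕ) (a : ℕ → ℕ) (G : ℕ → ℕ) (hq : 0 < q)
    (hG : ∀ i, (G i : ℤ) = (q : ℤ) ^ (a i * (a i - 1) / 2) *
      ∏ j : Fin (a i), ((q : ℤ) ^ ((j : ℕ) + 1) - (-1) ^ ((j : ℕ) + 1)))
    (hN : N ^ 2 = (q ^ 2) ^ γ * (∏ i : Fin (D + 1), G i) ^ 2) :
    (N : ℤ) = (q : ℤ) ^ γ * ∏ i ∈ Finset.range (D + 1), ((q : ℤ) ^ (a i * (a i - 1) / 2) *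
      ∏ j : Fin (a i), ((q : ℤ) ^ ((j : ℕ) + 1) - (-1) ^ ((j : ℕ) + 1))) := by
  have h1 : N ^ 2 = (q ^ γ * ∏ i : Fin (D + 1), G i) ^ 2 := by
    rw [hN, mul_pow, ← pow_mul, ← pow_mul, mul_comm 2 γ]
  have h2 : N = q ^ γ * ∏ i : Fin (D + 1), G i := Nat.pow_left_injective (by norm_num) h1
  rw [h2, Fin.prod_univ_eq_prod_range (fun i => G i) (D + 1)]
  push_cast
  congr 1
  exact Finset.prod_congr rfl (fun i _ => hG i)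

end Cfsg.Agent.Lib.Helper45.UU
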