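import Cfsg.Agent.Lib.Helper45.UU.Base
import Cfsg.Agent.Lib.Helper44.SpOrd3
import Cfsg.Agent.Lib.Helper45.UU.L1
import Cfsg.Agent.Lib.Helper45.UU.DD
import Cfsg.Agent.Lib.Helper45.UU.T1e
import Cfsg.Agent.Lib.Helper45.UU.G1a
import Cfsg.Agent.Lib.Helper45.UU.C1
import Cfsg.Agent.Lib.Helper45.UU.G1d
import Cfsg.Agent.Lib.Helper45.UU.T1
import Cfsg.Agent.Lib.Helper45.UU.Z0
import Cfsg.Agent.Lib.Helper45.UU.Z1
import Cfsg.Agent.Lib.Helper45.UU.E1
import Cfsg.Agent.Lib.Helper45.UU.E2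
import Cfsg.Agent.Lib.Helper45.UU.F0
import Cfsg.Agent.Lib.Helper45.UU.H3
import Cfsg.Agent.Lib.Helper45.UU.H6

set_option autoImplicit false

namespace Cfsg.Agent.Lib.Helper45.UU

open Cfsg.Agent.Lib.Helper45.UC

variable {t : ℕ} {d : Fin t → ℕ} {K : Type*} [Field K]

theorem main_card [Fintype K] {q n : ℕ} (hK : Fintype.card K = q ^ 2) (hd : ∀ k, 1 ≤ d k)
    (e : Ix d ≃ Fin n) (u : ↥(Cfsg.GU n K q))
    (hu : IsConj (Matrix.reindex e e (Cfsg.jordanTypeMatrix d K))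
      ((u : GL (Fin n) K) : Matrix (Fin n) (Fin n) K)) :
    (Nat.card ↥(Subgroup.centralizer ({u} : Set ↥(Cfsg.GU n K q))) : ℤ) = (q : ℤ) ^
      (2 * (∑ i ∈ Finset.range (Finset.univ.sup d + 1), ∑ j ∈ Finset.range (Finset.univ.sup d + 1),
      if i < j then i * cnt d i * cnt d j else 0) +
      ∑ i ∈ Finset.range (Finset.univ.sup d + 1), (i - 1) * cnt d i ^ 2) *
      ∏ i ∈ Finset.range (Finset.univ.sup d + 1), ((q : ℤ) ^ (cnt d i * (cnt d i - 1) / 2) *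
        ∏ j : Fin (cnt d i), ((q : ℤ) ^ ((j : ℕ) + 1) - (-1) ^ ((j : ℕ) + 1))) := by
  have hq : 0 < q := by
    rcases Nat.eq_zero_or_pos q with h | h
    · subst h
      simp at hK
    · exact h
  obtain ⟨σ, hσ, hσσ, hσ1, hσ2⟩ := exists_sigma hK
  obtain ⟨lam, hlam⟩ := exists_lam hK
  obtain ⟨eps, heps, heps'⟩ := exists_eps hK
  obtain ⟨P, hP, hcard⟩ := exists_formData σ hσ hσσ e u hu
  subst hP
  have hl : lam + P.σ lam = 1 := by rw [hσ, hlam]
  have he : P.σ eps = - eps := by rw [hσ, heps']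
  have hmain := (mkData P hd lam eps hl heps he).main
  rw [card_unitary_CA, card_unitary_CB, ← hcard] at hmain
  have hker : Nat.card {x : CA d K // (mkData P hd lam eps hl heps he).p x = 0} = _ :=
    card_ker_topRing hd
  rw [hker, hK] at hmain
  apply final_arith (Finset.univ.sup d) (fun i => cnt d i)
    (fun i => Nat.card ↥(Cfsg.GU (cnt d i) K q)) hq
    (fun i => Cfsg.Agent.Lib.Helper44.card_GU_int hK (cnt d i))
  rw [hmain]
  congr 2
  apply Finset.prod_congr rfl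
  intro i _
  rw [card_unitary_blk hK P.σ hσ hσσ hσ1 hσ2 (P.h hd i) (P.g hd i) (P.h_mul_g hd i) (i - 1)
    (P.adj_h hd i), card_blk]

end Cfsg.Agent.Lib.Helper45.UU
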